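import Cfsg.Agent.H34.Fact2
import Cfsg.Agent.H62.W1

set_option autoImplicit false
set_option linter.unusedSectionVars false

/-!
Transvections on an elementary abelian 2-group and groups of odd order.
-/

namespace Cfsg.Agent.H65.FoF

open Subgroup
open H34 (fixedBy mem_fixedBy fixedBy_anti)

universe u

variable {V : Type u} [CommGroup V]

/-- `t` is a transvection with centre `z`. -/
structure Tv (t : MulAut V) (z : V) : Prop where
  nt : ∃ v, t v ≠ v
  fix : t z = z
  app : ∀ v, t v = v ∨ t v = v * z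

theorem inv_apply_self' (f : MulAut V) (v : V) : f⁻¹ (f v) = v := by
  rw [← MulAut.mul_apply, inv_mul_cancel]; rfl

theorem apply_inv_self' (f : MulAut V) (v : V) : f (f⁻¹ v) = v := by
  rw [← MulAut.mul_apply, mul_inv_cancel]; rfl

theorem Tv.conj {t : MulAut V} {z : V} (h : Tv t z) (f : MulAut V) : Tv (f * t * f⁻¹) (f z) where
  nt := by
    obtain ⟨v, hv⟩ := h.nt
    refine ⟨f v, ?_⟩
    rw [MulAut.mul_apply, MulAut.mul_apply, inv_apply_self']
    intro h1
    exact hv (f.injective h1)
  fix := by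
    rw [MulAut.mul_apply, MulAut.mul_apply, inv_apply_self', h.fix]
  app v := by
    rw [MulAut.mul_apply, MulAut.mul_apply]
    rcases h.app (f⁻¹ v) with h1 | h1
    · left; rw [h1, apply_inv_self']
    · right; rw [h1, map_mul, apply_inv_self']

theorem Tv.zne {t : MulAut V} {z : V} (h : Tv t z) : z ≠ 1 := by
  rintro rfl
  obtain ⟨v, hv⟩ := h.nt
  rcases h.app v with h1 | h1
  · exact hv h1
  · exact hv (by rw [h1, mul_one])

theorem Tv.ne_one {t : MulAut V} {z : V} (h : Tv t z) : t ≠ 1 := by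
  rintro rfl
  obtain ⟨v, hv⟩ := h.nt
  exact hv rfl

theorem Tv.sq (hV : ∀ v : V, v * v = 1) {t : MulAut V} {z : V} (h : Tv t z) : t * t = 1 := by
  ext v
  rw [MulAut.mul_apply, MulAut.one_apply]
  rcases h.app v with h1 | h1
  · rw [h1, h1]
  · rw [h1, map_mul, h.fix, h1, mul_assoc, hV z, mul_one]

theorem Tv.inv (hV : ∀ v : V, v * v = 1) {t : MulAut V} {z : V} (h : Tv t z) : t⁻¹ = t :=
  inv_eq_of_mul_eq_one_left (h.sq hV)

theorem Tv.tt (hV : ∀ v : V, v * v = 1) {t : MulAut V} {z : V} (h : Tv t z) (v : V) : t (t v) = v := by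
  rw [← MulAut.mul_apply, h.sq hV]; rfl

/-- centres are unique -/
theorem Tv.centre {t : MulAut V} {z z' : V} (h : Tv t z) (h' : Tv t z') : z = z' := by
  obtain ⟨v, hv⟩ := h.nt
  have h1 := (h.app v).resolve_left hv
  have h2 := (h'.app v).resolve_left hv
  exact mul_left_cancel (h1.symm.trans h2)

theorem Tv.app' {t : MulAut V} {z : V} (h : Tv t z) {v : V} (hv : t v ≠ v) : t v = v * z :=
  (h.app v).resolve_left hv

/-- transvections fixing each other's centre commute -/
theorem Tv.comm {t s : MulAut V} {z w : V} (ht : Tv t z) (hs : Tv s w) (h1 : s z = z) (h2 : t w = w) :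
    t * s = s * t := by
  ext v
  rw [MulAut.mul_apply, MulAut.mul_apply]
  rcases ht.app v with h3 | h3 <;> rcases hs.app v with h4 | h4
  · rw [h3, h4, h3]
  · rw [h3, h4, map_mul, h3, h2]
  · rw [h3, h4, h3, map_mul, h1, h4]
  · rw [h3, h4, map_mul, map_mul, h1, h2, h3, h4]
    exact mul_right_comm _ _ _

variable [Finite V]

/-- Lemma A -/
theorem Tv.eq_of_fix (hV : ∀ v : V, v * v = 1) {t s : MulAut V} {z w : V} (ht : Tv t z) (hs : Tv s w)
    (ho : Odd (orderOf (t * s))) (hz : s z = z) : t = s := by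
  have huz : (t * s) z = z := by rw [MulAut.mul_apply, hz, ht.fix]
  have hw : t w = w := by
    have h1 : (t * s) w = t w := by rw [MulAut.mul_apply, hs.fix]
    have h2 := H34.fixed_commutator_eq_one hV (t * s) ho w (by
      rw [h1]
      rcases ht.app w with h3 | h3
      · rw [h3, mul_inv_cancel, map_one]
      · rw [h3, mul_right_comm, mul_inv_cancel, one_mul, huz])
    rw [h1] at h2
    exact mul_inv_eq_one.1 h2
  have huw : (t * s) w = w := by rw [MulAut.mul_apply, hs.fix, hw]
  have h3 : t * s = 1 := by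
    ext v
    have h2 := H34.fixed_commutator_eq_one hV (t * s) ho v (by
      have h4 : (t * s) v * v⁻¹ = 1 ∨ (t * s) v * v⁻¹ = z ∨ (t * s) v * v⁻¹ = w ∨
          (t * s) v * v⁻¹ = z * w := by
        rw [MulAut.mul_apply]
        rcases hs.app v with h5 | h5 <;> rcases ht.app v with h6 | h6
        · left; rw [h5, h6, mul_inv_cancel]
        · right; left; rw [h5, h6, mul_right_comm, mul_inv_cancel, one_mul]
        · right; right; left
          rw [h5, map_mul, h6, hw, mul_right_comm, mul_inv_cancel, one_mul]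
        · right; right; right
          rw [h5, map_mul, h6, hw, mul_right_comm, mul_right_comm v, mul_inv_cancel, one_mul]
      rcases h4 with h4 | h4 | h4 | h4
      · rw [h4, map_one]
      · rw [h4, huz]
      · rw [h4, huw]
      · rw [h4, map_mul, huz, huw])
    exact mul_inv_eq_one.1 h2
  have h4 : t = s⁻¹ := eq_inv_of_mul_eq_one_left h3
  rw [h4, hs.inv hV]

theorem odd_comm {G : Type*} [Group G] {t s : G} (ht : t * t = 1) (hs : s * s = 1)
    (ho : Odd (orderOf (t * s))) : Odd (orderOf (s * t)) := by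
  have h1 : s * t = (t * s)⁻¹ := by
    rw [mul_inv_rev, inv_eq_of_mul_eq_one_left ht, inv_eq_of_mul_eq_one_left hs]
  rw [h1, orderOf_inv]
  exact ho

/-- distinct transvections with product of odd order -/
theorem Tv.ne_fix (hV : ∀ v : V, v * v = 1) {t s : MulAut V} {z w : V} (ht : Tv t z) (hs : Tv s w)
    (ho : Odd (orderOf (t * s))) (hne : t ≠ s) : s z = z * w ∧ t w = w * z := by
  constructor
  · exact hs.app' fun h => hne (ht.eq_of_fix hV hs ho h)
  · exact ht.app' fun h => hne (hs.eq_of_fix hV ht (odd_comm (ht.sq hV) (hs.sq hV) ho) h).symm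

theorem Tv.braid (hV : ∀ v : V, v * v = 1) {t s : MulAut V} {z w : V} (ht : Tv t z) (hs : Tv s w)
    (h1 : s z = z * w) (h2 : t w = w * z) : t * s * t = s * t * s := by
  have hz := hV z
  have hw := hV w
  have hz' : ∀ x, z * (z * x) = x := fun x => by rw [← mul_assoc, hz, one_mul]
  have hw' : ∀ x, w * (w * x) = x := fun x => by rw [← mul_assoc, hw, one_mul]
  ext v
  simp only [MulAut.mul_apply]
  rcases hs.app v with h5 | h5 <;> rcases ht.app v with h6 | h6 <;>
    simp only [h5, h6, map_mul, h1, h2, ht.fix, hs.fix] <;>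
    simp only [mul_assoc, mul_comm, mul_left_comm, hz, hz', hw, hw', mul_one]

/-- Lemma C: three transvections -/
theorem Tv.third (hV : ∀ v : V, v * v = 1) {t s r : MulAut V} {z w x : V} (ht : Tv t z) (hs : Tv s w)
    (hr : Tv r x) (hts : t ≠ s) (o1 : Odd (orderOf (t * s))) (o2 : Odd (orderOf (t * r)))
    (o3 : Odd (orderOf (s * r))) (o4 : Odd (orderOf (t * s * t * r))) : r = t ∨ r = s ∨ r = t * s * t := by
  by_contra hcon
  push Not at hcon
  obtain ⟨c1, c2, c3⟩ := hcon
  obtain ⟨h1, h2⟩ := ht.ne_fix hV hs o1 hts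
  obtain ⟨h3, h4⟩ := ht.ne_fix hV hr o2 (Ne.symm c1)
  obtain ⟨h5, h6⟩ := hs.ne_fix hV hr o3 (Ne.symm c2)
  have h7 : Tv (t * s * t) (t w) := by
    have := hs.conj t
    rwa [ht.inv hV] at this
  apply c3
  refine (h7.eq_of_fix hV hr o4 ?_).symm
  have hx := hV x
  have hx' : ∀ y, x * (x * y) = y := fun y => by rw [← mul_assoc, hx, one_mul]
  rw [h2, map_mul, h3, h5]
  simp only [mul_assoc, mul_comm, mul_left_comm, hx, hx', mul_one]

end Cfsg.Agent.H65.FoF
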