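import Cfsg.Agent.H65.FoF1

set_option autoImplicit false
set_option linter.unusedSectionVars false
set_option linter.unusedSimpArgs false

/-!
Conjugates of a transvection under a group of odd order; rank estimates.
-/

namespace Cfsg.Agent.H65.FoF

open Subgroup
open H34 (fixedBy mem_fixedBy fixedBy_anti)
open H62 (cm cm_apply)

universe u

variable {V : Type u} [CommGroup V] [Finite V]

theorem odd_of_mem {G : Type*} [Group G] {F : Subgroup G} (hF : Odd (Nat.card F)) {x : G} (hx : x ∈ F) :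
    Odd (orderOf x) := by
  refine hF.of_dvd_nat ?_
  rw [← Subgroup.orderOf_mk x hx]
  exact orderOf_dvd_natCard _

/-- the `F`-conjugates of `t` -/
def orb {G : Type*} [Group G] (F : Subgroup G) (t : G) : Set G := {s | ∃ f ∈ F, f * t * f⁻¹ = s}

theorem conj_prod_mem {G : Type*} [Group G] {F : Subgroup G} {t f g : G} (ht : t * t = 1)
    (htF : ∀ f ∈ F, t * f * t⁻¹ ∈ F) (hf : f ∈ F) (hg : g ∈ F) :
    (f * t * f⁻¹) * (g * t * g⁻¹) ∈ F := by
  have hti : t⁻¹ = t := inv_eq_of_mul_eq_one_left ht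
  have h1 := mul_mem (mul_mem hf (htF _ (mul_mem (inv_mem hf) hg))) (inv_mem hg)
  rw [hti] at h1
  have e : (f * t * f⁻¹) * (g * t * g⁻¹) = f * (t * (f⁻¹ * g) * t) * g⁻¹ := by
    simp only [mul_assoc]
  rw [e]
  exact h1

theorem orb_self {G : Type*} [Group G] (F : Subgroup G) (t : G) : t ∈ orb F t :=
  ⟨1, one_mem _, by rw [one_mul, inv_one, mul_one]⟩

theorem orb_prod_mem {G : Type*} [Group G] {F : Subgroup G} {t r s : G} (ht : t * t = 1)
    (htF : ∀ f ∈ F, t * f * t⁻¹ ∈ F) (hr : r ∈ orb F t) (hs : s ∈ orb F t) : r * s ∈ F := by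
  obtain ⟨f, hf, rfl⟩ := hr
  obtain ⟨g, hg, rfl⟩ := hs
  exact conj_prod_mem ht htF hf hg

theorem orb_conj {G : Type*} [Group G] {F : Subgroup G} {t s : G}
    (htF : ∀ f ∈ F, t * f * t⁻¹ ∈ F) (hs : s ∈ orb F t) : t * s * t⁻¹ ∈ orb F t := by
  obtain ⟨f, hf, rfl⟩ := hs
  refine ⟨t * f * t⁻¹, htF f hf, ?_⟩
  group

theorem orb_conj_mem {G : Type*} [Group G] {F : Subgroup G} {t s g : G}
    (hg : g ∈ F) (hs : s ∈ orb F t) : g * s * g⁻¹ ∈ orb F t := by
  obtain ⟨f, hf, rfl⟩ := hs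
  exact ⟨g * f, mul_mem hg hf, by group⟩

theorem orb_three (hV : ∀ v : V, v * v = 1) {t s : MulAut V} {z : V} (ht : Tv t z)
    {F : Subgroup (MulAut V)} (hF : Odd (Nat.card F)) (htF : ∀ f ∈ F, t * f * t⁻¹ ∈ F)
    (hs : s ∈ orb F t) (hst : t ≠ s) {r : MulAut V} (hr : r ∈ orb F t) :
    r = t ∨ r = s ∨ r = t * s * t := by
  have h4 : t * s * t ∈ orb F t := by
    have := orb_conj htF hs
    rwa [ht.inv hV] at this
  have ho : ∀ a ∈ orb F t, ∀ b ∈ orb F t, Odd (orderOf (a * b)) := fun a ha b hb =>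
    odd_of_mem hF (orb_prod_mem (ht.sq hV) htF ha hb)
  obtain ⟨f, hf, rfl⟩ := id hs
  obtain ⟨g, hg, rfl⟩ := id hr
  exact ht.third hV (ht.conj f) (ht.conj g) hst (ho _ (orb_self F t) _ hs) (ho _ (orb_self F t) _ hr)
    (ho _ hs _ hr) (ho _ h4 _ hr)

/-- a transvection with a square root normalising `F` centralises `F` -/
theorem no_root (hV : ∀ v : V, v * v = 1) {t c : MulAut V} {z : V} (ht : Tv t z)
    {F : Subgroup (MulAut V)} (hF : Odd (Nat.card F)) (hct : c * c = t)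
    (hcF : ∀ f ∈ F, c * f * c⁻¹ ∈ F) {f : MulAut V} (hf : f ∈ F) : f * t * f⁻¹ = t := by
  by_contra hne
  have htF : ∀ f ∈ F, t * f * t⁻¹ ∈ F := by
    intro f hf
    have := hcF _ (hcF f hf)
    rw [← hct]
    have e : c * c * f * (c * c)⁻¹ = c * (c * f * c⁻¹) * c⁻¹ := by group
    rw [e]; exact this
  set s := f * t * f⁻¹ with hsdef
  have hs : s ∈ orb F t := ⟨f, hf, rfl⟩
  have hct' : c * t * c⁻¹ = t := by rw [← hct]; group
  have hcs : c * s * c⁻¹ ∈ orb F t := by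
    refine ⟨c * f * c⁻¹, hcF f hf, ?_⟩
    calc c * f * c⁻¹ * t * (c * f * c⁻¹)⁻¹ = c * f * c⁻¹ * (c * t * c⁻¹) * (c * f * c⁻¹)⁻¹ := by rw [hct']
      _ = c * s * c⁻¹ := by rw [hsdef]; group
  have ho : Odd (orderOf (t * s)) := odd_of_mem hF (orb_prod_mem (ht.sq hV) htF (orb_self F t) hs)
  have hS : Tv s (f z) := ht.conj f
  obtain ⟨h1, h2⟩ := ht.ne_fix hV hS ho (Ne.symm hne)
  have hb := ht.braid hV hS h1 h2
  have ht2 := ht.sq hV
  have hti := ht.inv hV
  -- t s t ≠ s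
  have hno : t * s * t ≠ s := by
    intro h
    rw [h] at hb
    have : s * (t * s) = s * 1 := by rw [← mul_assoc, ← hb, mul_one]
    have h3 := mul_left_cancel this
    apply hne
    have h4 : s = t⁻¹ := eq_inv_of_mul_eq_one_right h3
    rw [h4, hti]
  have h5 : c * (c * s * c⁻¹) * c⁻¹ = t * s * t := by
    have e : c * (c * s * c⁻¹) * c⁻¹ = (c * c) * s * (c * c)⁻¹ := by group
    rw [e, hct, hti]
  rcases orb_three hV ht hF htF hs (Ne.symm hne) hcs with h | h | h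
  · apply hne
    have : s = c⁻¹ * (c * s * c⁻¹) * c := by group
    rw [this, h]
    have e : t = c⁻¹ * (c * t * c⁻¹) * c := by group
    rw [hct'] at e
    exact e.symm
  · rw [h, h] at h5
    exact hno h5.symm
  · apply hno
    rw [h] at h5
    have e : c * (t * s * t) * c⁻¹ = (c * t * c⁻¹) * (c * s * c⁻¹) * (c * t * c⁻¹) := by group
    rw [e, hct', h] at h5
    have e2 : t * (t * s * t) * t = (t * t) * s * (t * t) := by group
    rw [e2, ht2, one_mul, mul_one] at h5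
    exact h5.symm

/-! ### rank estimates -/

section rank

variable {U : Type*} [CommGroup U] [Finite U]

theorem cm_sq (hU : ∀ v : U, v * v = 1) (β : MulAut U) (u : U) : cm β (cm β u) = cm (β * β) u := by
  rw [cm_apply, cm_apply, cm_apply, MulAut.mul_apply, map_mul, map_inv, mul_inv, inv_inv]
  have h1 : (β u)⁻¹ = β u := inv_eq_of_mul_eq_one_left (hU _)
  have h2 : u⁻¹ = u := inv_eq_of_mul_eq_one_left (hU _)
  rw [h1, h2]
  calc β (β u) * β u * (β u * u) = β (β u) * (β u * β u) * u := by simp only [mul_assoc]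
    _ = β (β u) * u := by rw [hU, mul_one]

theorem iter_cm (hU : ∀ v : U, v * v = 1) (α : MulAut U) : ∀ (i : ℕ) (u : U),
    (cm α)^[2 ^ i] u = cm (α ^ (2 ^ i)) u := by
  intro i
  induction i with
  | zero => intro u; simp
  | succ i ih =>
    intro u
    rw [pow_succ, mul_two, Function.iterate_add_apply, ih, ih, cm_sq hU, ← pow_add, ← mul_two]

def Rg (N : U →* U) : ℕ → Subgroup U
  | 0 => ⊤
  | n + 1 => (Rg N n).map N

theorem mem_Rg (N : U →* U) : ∀ (n : ℕ) (u : U), u ∈ Rg N n ↔ ∃ v, N^[n] v = u := by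
  intro n
  induction n with
  | zero => intro u; simp [Rg]
  | succ n ih =>
    intro u
    simp only [Rg, mem_map, Function.iterate_succ', Function.comp_apply]
    constructor
    · rintro ⟨w, hw, rfl⟩
      obtain ⟨v, rfl⟩ := (ih w).1 hw
      exact ⟨v, rfl⟩
    · rintro ⟨v, rfl⟩
      exact ⟨_, (ih _).2 ⟨v, rfl⟩, rfl⟩

theorem Rg_anti (N : U →* U) : ∀ n, Rg N (n + 1) ≤ Rg N n := by
  intro n
  induction n with
  | zero => exact le_top
  | succ n ih => exact map_mono ih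

theorem Rg_stab (N : U →* U) {n : ℕ} (h : Rg N (n + 1) = Rg N n) : ∀ i, Rg N (n + i) = Rg N n := by
  intro i
  induction i with
  | zero => rfl
  | succ i ih =>
    change (Rg N (n + i)).map N = _
    rw [ih]
    exact h

theorem two_mul_card_le {G : Type*} [Group G] [Finite G] {A B : Subgroup G} (h : A < B) :
    2 * Nat.card A ≤ Nat.card B := by
  obtain ⟨k, hk⟩ := Subgroup.card_dvd_of_le h.le
  have hA : 0 < Nat.card A := Nat.card_pos
  have hB : 0 < Nat.card B := Nat.card_pos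
  have h2 : 2 ≤ k := by
    rcases Nat.lt_or_ge k 2 with h' | h'
    · exfalso
      interval_cases k
      · omega
      · exact h.ne (Subgroup.eq_of_le_of_card_ge h.le (by omega))
    · exact h'
  rw [hk, mul_comm]
  exact Nat.mul_le_mul_left _ h2

theorem card_Rg (N : U →* U) {m : ℕ} (hm : Rg N m = ⊥) : ∀ j, Rg N (j + 1) ≠ ⊥ →
    2 ^ j * Nat.card (Rg N (j + 1)) ≤ Nat.card (Rg N 1) := by
  intro j
  induction j with
  | zero => intro _; rw [pow_zero, one_mul]
  | succ j ih =>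
    intro hne
    have h1 : Rg N (j + 1) ≠ ⊥ := fun h => hne (le_bot_iff.1 ((Rg_anti N (j + 1)).trans h.le))
    have h2 : Rg N (j + 1 + 1) < Rg N (j + 1) := by
      refine lt_of_le_of_ne (Rg_anti N _) fun h => h1 ?_
      have h3 := Rg_stab N h m
      have h4 : ∀ i, Rg N (m + i) = ⊥ := by
        intro i
        induction i with
        | zero => exact hm
        | succ i ih => exact le_bot_iff.1 ((Rg_anti N _).trans ih.le)
      rw [← h3, add_comm]
      exact h4 _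
    calc 2 ^ (j + 1) * Nat.card (Rg N (j + 1 + 1)) = 2 ^ j * (2 * Nat.card (Rg N (j + 1 + 1))) := by
          rw [pow_succ, mul_assoc]
      _ ≤ 2 ^ j * Nat.card (Rg N (j + 1)) := Nat.mul_le_mul_left _ (two_mul_card_le h2)
      _ ≤ _ := ih h1

theorem rank_bound (hU : ∀ v : U, v * v = 1) (α : MulAut U) {k : ℕ} (hk : 1 ≤ k) (hα : α ^ (2 ^ k) = 1)
    (hc : Nat.card (cm α).range ≤ 2 ^ k) : Nat.card (cm (α ^ (2 ^ (k - 1)))).range ≤ 2 := by
  have h0 : ∀ i, Rg (cm α) (2 ^ i) = (cm (α ^ (2 ^ i))).range := by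
    intro i
    ext u
    rw [mem_Rg]
    constructor
    · rintro ⟨v, rfl⟩; exact ⟨v, (iter_cm hU α i v).symm⟩
    · rintro ⟨v, rfl⟩; exact ⟨v, iter_cm hU α i v⟩
  have h1 : Rg (cm α) (2 ^ k) = ⊥ := by
    rw [h0, hα, eq_bot_iff]
    rintro _ ⟨v, rfl⟩
    rw [mem_bot, cm_apply, MulAut.one_apply, mul_inv_cancel]
  have hR1 : Rg (cm α) 1 = (cm α).range := by
    have := h0 0
    simpa using this
  rw [← h0]
  by_cases hb : Rg (cm α) (2 ^ (k - 1)) = ⊥
  · rw [hb, card_bot]; norm_num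
  have hpos : 1 ≤ 2 ^ (k - 1) := Nat.one_le_two_pow
  obtain ⟨i, hi⟩ : ∃ i, 2 ^ (k - 1) = i + 1 := ⟨2 ^ (k - 1) - 1, by omega⟩
  rw [hi] at hb ⊢
  have h2 := card_Rg (cm α) h1 i hb
  rw [hR1] at h2
  have h3 : k ≤ i + 1 := by
    have : k - 1 < 2 ^ (k - 1) := Nat.lt_two_pow_self
    omega
  have h4 : 2 ^ k ≤ 2 ^ (i + 1) := Nat.pow_le_pow_right (by norm_num) h3
  have h5 : 2 ^ i * Nat.card (Rg (cm α) (i + 1)) ≤ 2 ^ i * 2 := by
    rw [← pow_succ]
    exact h2.trans (hc.trans h4)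
  exact Nat.le_of_mul_le_mul_left h5 (by positivity)

end rank

theorem exists_Tv (hV : ∀ v : V, v * v = 1) {t : MulAut V} (h1 : t ≠ 1) (hsq : t * t = 1)
    (hc : Nat.card (cm t).range ≤ 2) : ∃ z, Tv t z := by
  obtain ⟨v, hv⟩ : ∃ v, t v ≠ v := by
    by_contra hcon
    push Not at hcon
    exact h1 (MulEquiv.ext hcon)
  have hz : t v * v⁻¹ ≠ 1 := fun h => hv (mul_inv_eq_one.1 h)
  refine ⟨t v * v⁻¹, ⟨v, hv⟩, ?_, ?_⟩
  · have h2 : t (t v) = v := by rw [← MulAut.mul_apply, hsq]; rfl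
    rw [map_mul, map_inv, h2]
    have h3 : (t v)⁻¹ = t v := inv_eq_of_mul_eq_one_left (hV _)
    have h4 : v⁻¹ = v := inv_eq_of_mul_eq_one_left (hV _)
    rw [h3, h4, mul_comm]
  · intro w
    by_contra hcon
    push Not at hcon
    obtain ⟨c1, c2⟩ := hcon
    have h5 : t w * w⁻¹ ≠ 1 := fun h => c1 (mul_inv_eq_one.1 h)
    have h6 : t w * w⁻¹ ≠ t v * v⁻¹ := fun h => c2 (by
      rw [← h, mul_comm (t w) w⁻¹, mul_inv_cancel_left])
    have hsub : ({1, t v * v⁻¹, t w * w⁻¹} : Set V) ⊆ ((cm t).range : Set V) := by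
      rintro y (rfl | rfl | rfl)
      · exact one_mem _
      · exact ⟨v, rfl⟩
      · exact ⟨w, rfl⟩
    have h7 := Set.ncard_le_ncard hsub (Set.toFinite _)
    have h8 : ({1, t v * v⁻¹, t w * w⁻¹} : Set V).ncard = 3 := by
      rw [Set.ncard_eq_three]
      exact ⟨_, _, _, hz.symm, h5.symm, h6.symm, rfl⟩
    have h9 : ((cm t).range : Set V).ncard = Nat.card (cm t).range := rfl
    omega

end Cfsg.Agent.H65.FoF
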