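import Cfsg.Agent.H65.FoF2

set_option autoImplicit false
set_option linter.unusedSectionVars false
set_option linter.unusedSimpArgs false

/-!
Best offenders in a group with a self-centralising normal subgroup of odd order.
-/

namespace Cfsg.Agent.H65.FoF

open Subgroup
open H34 (fixedBy mem_fixedBy fixedBy_anti)
open H62 (cm cm_apply)

universe u

variable {V : Type u} [CommGroup V] [Finite V]

/-- stabiliser of a subgroup -/
def stab (W : Subgroup V) : Subgroup (MulAut V) where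
  carrier := {g | ∀ w, g w ∈ W ↔ w ∈ W}
  mul_mem' := by
    intro a b ha hb w
    rw [MulAut.mul_apply, ha, hb]
  one_mem' := fun w => Iff.rfl
  inv_mem' := by
    intro a ha w
    rw [← ha (a⁻¹ w), apply_inv_self']

theorem mem_stab {W : Subgroup V} {g : MulAut V} : g ∈ stab W ↔ ∀ w, g w ∈ W ↔ w ∈ W := Iff.rfl

/-- restriction -/
def res (W : Subgroup V) : stab W →* MulAut W where
  toFun h :=
    { toFun := fun u => ⟨h.1 u, (h.2 u).2 u.2⟩
      invFun := fun u => ⟨(h⁻¹).1 u, ((h⁻¹).2 u).2 u.2⟩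
      left_inv := fun u => Subtype.ext (inv_apply_self' h.1 u)
      right_inv := fun u => Subtype.ext (apply_inv_self' h.1 u)
      map_mul' := fun a b => Subtype.ext (map_mul h.1 (a : V) (b : V)) }
  map_one' := by ext u; rfl
  map_mul' a b := by ext u; rfl

theorem res_apply {W : Subgroup V} (h : stab W) (u : W) : ((res W h u : W) : V) = h.1 u := rfl

theorem res_eq_one {W : Subgroup V} {h : stab W} : res W h = 1 ↔ ∀ v ∈ W, h.1 v = v := by
  constructor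
  · intro h1 v hv
    have := congrArg Subtype.val (DFunLike.congr_fun h1 (⟨v, hv⟩ : W))
    exact this
  · intro h1
    ext u
    exact h1 u u.2

theorem comm_stab {B : Subgroup (MulAut V)} {g : MulAut V} (h : ∀ b ∈ B, b * g = g * b) :
    g ∈ stab (fixedBy B) := by
  intro w
  constructor
  · intro h1 b hb
    have h2 := h1 b hb
    rw [← MulAut.mul_apply, h b hb, MulAut.mul_apply] at h2
    exact g.injective h2
  · intro h1 b hb
    rw [← MulAut.mul_apply, h b hb, MulAut.mul_apply, h1 b hb]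

theorem exists_B (hV : ∀ v : V, v * v = 1) {F A : Subgroup (MulAut V)} (hF : Odd (Nat.card F))
    (hA2 : IsPGroup 2 A) (hAF : A ≤ normalizer (F : Set (MulAut V)))
    (hcomm : ∀ a ∈ A, ∀ b ∈ A, a * b = b * a) {a₁ : MulAut V} (ha₁ : a₁ ∈ A)
    (hna : ∃ f ∈ F, a₁ * f ≠ f * a₁) :
    ∃ B ≤ A, ∃ a ∈ A, B ⊔ zpowers a = A ∧ (∃ x ∈ F, (∀ b ∈ B, b * x = x * b) ∧ a₁ * x ≠ x * a₁) ∧
      ∀ y ∈ A, (∀ v ∈ fixedBy B, y v = v) → y ∈ B := by
  have : Fact (Nat.Prime 2) := ⟨Nat.prime_two⟩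
  have hcop : (Nat.card A).Coprime (Nat.card F) := by
    obtain ⟨k, hk⟩ := IsPGroup.iff_card.1 hA2
    rw [hk]
    exact Nat.Coprime.pow_left k (Nat.coprime_two_left.2 hF)
  have hcA : IsMulCommutative A := ⟨⟨fun a b => Subtype.ext (hcomm a a.2 b b.2)⟩⟩
  have hgen := Cop.le_genT hcA _ F rfl hAF hcop
  obtain ⟨B₀, hB₀, x, hx, hxA⟩ : ∃ B ∈ Cop.cycQuot A, ∃ x ∈ F ⊓ centralizer (B : Set (MulAut V)),
      x ∉ centralizer ({a₁} : Set (MulAut V)) := by
    by_contra hcon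
    push Not at hcon
    obtain ⟨f, hf, hf2⟩ := hna
    apply hf2
    have h1 : F ≤ centralizer ({a₁} : Set (MulAut V)) := by
      refine hgen.trans ?_
      unfold Cop.genT
      exact iSup₂_le fun B hB x hx => hcon B hB x hx
    exact (mem_centralizer_singleton_iff.1 (h1 hf)).symm
  obtain ⟨hB₀A, a, haA, hBa⟩ := hB₀
  have hxB₀ : ∀ b ∈ B₀, b * x = x * b := fun b hb => mem_centralizer_iff.1 hx.2 b hb
  have hax : a₁ * x ≠ x * a₁ := fun h => hxA (mem_centralizer_singleton_iff.2 h.symm)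
  let B : Subgroup (MulAut V) :=
    { carrier := {y | y ∈ A ∧ ∀ v ∈ fixedBy B₀, y v = v}
      mul_mem' := by
        rintro a b ⟨ha, ha'⟩ ⟨hb, hb'⟩
        exact ⟨mul_mem ha hb, fun v hv => by rw [MulAut.mul_apply, hb' v hv, ha' v hv]⟩
      one_mem' := ⟨one_mem _, fun v _ => rfl⟩
      inv_mem' := by
        rintro a ⟨ha, ha'⟩
        refine ⟨inv_mem ha, fun v hv => ?_⟩
        have := congrArg (fun w => a⁻¹ w) (ha' v hv)
        rw [inv_apply_self'] at this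
        exact this.symm }
  have hB₀B : B₀ ≤ B := fun b hb => ⟨hB₀A hb, fun v hv => hv b hb⟩
  have hfix : fixedBy B = fixedBy B₀ :=
    le_antisymm (fixedBy_anti hB₀B) fun v hv b hb => hb.2 v hv
  refine ⟨B, fun y hy => hy.1, a, haA, ?_, ⟨x, hx.1, ?_, hax⟩, ?_⟩
  · apply le_antisymm
    · rw [sup_le_iff, zpowers_le]; exact ⟨fun y hy => hy.1, haA⟩
    · conv_lhs => rw [← hBa]
      exact sup_le_sup_right hB₀B _
  · intro b hb
    have hbA := hb.1
    have he := H62.axb hV B₀ (hA2.to_le hB₀A) (b * x * b⁻¹ * x⁻¹) ?_ ?_ ?_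
    · exact mul_inv_eq_iff_eq_mul.1 (mul_inv_eq_one.1 he)
    · exact odd_of_mem hF (mul_mem ((mem_normalizer_iff.1 (hAF hbA) _).1 hx.1) (inv_mem hx.1))
    · intro y hy
      have c1 : Commute y b := hcomm y (hB₀A hy) b hbA
      have c2 : Commute y x := hxB₀ y hy
      exact ((c1.mul_right c2).mul_right c1.inv_right).mul_right c2.inv_right
    · intro v hv
      have h1 : x⁻¹ v ∈ fixedBy B₀ := by
        intro y hy
        have c2 : Commute y x := hxB₀ y hy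
        have c3 : y * x⁻¹ = x⁻¹ * y := c2.inv_right
        rw [← MulAut.mul_apply, c3, MulAut.mul_apply, hv y hy]
      have h2 : b⁻¹ (x⁻¹ v) = x⁻¹ v := by
        have := congrArg (fun w => b⁻¹ w) (hb.2 _ h1)
        rw [inv_apply_self'] at this
        exact this.symm
      rw [MulAut.mul_apply, MulAut.mul_apply, MulAut.mul_apply, h2, apply_inv_self', hb.2 v hv]
  · intro y hy h
    exact ⟨hy, fun v hv => h v (hfix ▸ hv)⟩

theorem tv_on (hV : ∀ v : V, v * v = 1) {A B : Subgroup (MulAut V)}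
    (hA2 : IsPGroup 2 A) (hcomm : ∀ a ∈ A, ∀ b ∈ A, a * b = b * a) (hBA : B ≤ A) {a : MulAut V} (ha : a ∈ A)
    (hBa : B ⊔ zpowers a = A) (hker : ∀ y ∈ A, (∀ v ∈ fixedBy B, y v = v) → y ∈ B)
    (hoff : Nat.card B * Nat.card (fixedBy B) ≤ Nat.card A * Nat.card (fixedBy A)) {a₁ : MulAut V}
    (ha₁ : a₁ ∈ A) (hs : a₁ ∈ stab (fixedBy B)) (hsq : a₁ * a₁ = 1) (hnB : a₁ ∉ B) :
    ∃ z, Tv (res (fixedBy B) ⟨a₁, hs⟩) z := by
  have : Fact (Nat.Prime 2) := ⟨Nat.prime_two⟩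
  set W := fixedBy B with hW
  have hAs : A ≤ stab W := fun y hy => comm_stab fun b hb => hcomm b (hBA hb) y hy
  let ψ : A →* MulAut W := (res W).comp (inclusion hAs)
  have hψ : ∀ (y : A) (u : W), ((ψ y u : W) : V) = (y : MulAut V) u := fun y u => rfl
  have hψ1 : ∀ y : A, ψ y = 1 ↔ (y : MulAut V) ∈ B := by
    intro y
    constructor
    · intro h
      exact hker y y.2 fun v hv => congrArg Subtype.val (DFunLike.congr_fun h (⟨v, hv⟩ : W))
    · intro h
      ext u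
      rw [hψ]
      exact u.2 y h
  have hk1 : ψ.ker = B.subgroupOf A := by
    ext y
    rw [MonoidHom.mem_ker, hψ1, mem_subgroupOf]
  set α := ψ ⟨a, ha⟩ with hα
  have hrange : ψ.range = zpowers α := by
    apply le_antisymm
    · rintro _ ⟨⟨y, hy⟩, rfl⟩
      have hy' : y ∈ B ⊔ zpowers a := by rw [hBa]; exact hy
      have h1 : B ⊔ zpowers a ≤ ((zpowers α).comap ψ).map A.subtype := by
        rw [sup_le_iff, zpowers_le]
        refine ⟨fun b hb => ⟨⟨b, hBA hb⟩, ?_, rfl⟩, ⟨⟨a, ha⟩, ?_, rfl⟩⟩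
        · change ψ ⟨b, hBA hb⟩ ∈ zpowers α
          rw [(hψ1 ⟨b, hBA hb⟩).2 hb]; exact one_mem _
        · exact mem_zpowers α
      obtain ⟨⟨y', hy'A⟩, h2, h3⟩ := h1 hy'
      have h4 : y' = y := h3
      subst h4
      exact h2
    · rw [zpowers_le]; exact ⟨_, rfl⟩
  have hcard : Nat.card A = Nat.card B * orderOf α := by
    have h1 := Subgroup.card_mul_index ψ.ker
    rw [Subgroup.index_ker, hrange, Nat.card_zpowers, hk1,
      Nat.card_congr (subgroupOfEquivOfLe hBA).toEquiv] at h1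
    exact h1.symm
  have hr2 : IsPGroup 2 ψ.range := hA2.of_surjective ψ.rangeRestrict ψ.rangeRestrict_surjective
  obtain ⟨k, hk⟩ : ∃ k, orderOf α = 2 ^ k := by
    rw [hrange] at hr2
    obtain ⟨k, hk⟩ := IsPGroup.iff_card.1 hr2
    exact ⟨k, by rw [← hk, Nat.card_zpowers]⟩
  have hα1 : ψ ⟨a₁, ha₁⟩ ≠ 1 := fun h => hnB ((hψ1 _).1 h)
  have hαsq : ψ ⟨a₁, ha₁⟩ * ψ ⟨a₁, ha₁⟩ = 1 := by
    rw [← map_mul, show (⟨a₁, ha₁⟩ : A) * ⟨a₁, ha₁⟩ = 1 from Subtype.ext hsq, map_one]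
  obtain ⟨j, hj⟩ : ∃ j : ℕ, α ^ j = ψ ⟨a₁, ha₁⟩ := by
    have h1 : ψ ⟨a₁, ha₁⟩ ∈ zpowers α := hrange ▸ ⟨_, rfl⟩
    have := (mem_powers_iff_mem_zpowers (x := α)).2 h1
    obtain ⟨j, hj⟩ := this
    exact ⟨j, hj⟩
  have hk1' : 1 ≤ k := by
    rcases Nat.eq_zero_or_pos k with h | h
    · exfalso
      rw [h, pow_zero, orderOf_eq_one_iff] at hk
      apply hα1
      rw [← hj, hk, one_pow]
    · exact h
  have hWU : ∀ u : W, u * u = 1 := fun u => Subtype.ext (hV u)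
  have hc : Nat.card (cm α).range ≤ 2 ^ k := by
    have h1 : ((cm α).ker).map W.subtype = fixedBy A := by
      ext v
      constructor
      · rintro ⟨u, hu, rfl⟩
        rw [H62.fixedBy_eq_inf hBa]
        refine ⟨u.2, ?_⟩
        have h2 : α u * u⁻¹ = 1 := hu
        exact congrArg Subtype.val (mul_inv_eq_one.1 h2)
      · intro hv
        have hv' := (H62.fixedBy_eq_inf hBa v).1 hv
        refine ⟨⟨v, hv'.1⟩, ?_, rfl⟩
        change α ⟨v, hv'.1⟩ * (⟨v, hv'.1⟩ : W)⁻¹ = 1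
        rw [mul_inv_eq_one]
        exact Subtype.ext hv'.2
    have h2 := Subgroup.card_mul_index (cm α).ker
    rw [Subgroup.index_ker] at h2
    have h3 : Nat.card (cm α).ker = Nat.card (fixedBy A) := by
      rw [← h1, Subgroup.card_map_of_injective W.subtype_injective]
    rw [h3] at h2
    rw [hcard, ← h2, hk] at hoff
    have hposB : 0 < Nat.card B := Nat.card_pos
    have hposA : 0 < Nat.card (fixedBy A) := Nat.card_pos
    have h4 : (Nat.card B * Nat.card (fixedBy A)) * Nat.card (cm α).range ≤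
        (Nat.card B * Nat.card (fixedBy A)) * 2 ^ k := by
      calc _ = Nat.card B * (Nat.card (fixedBy A) * Nat.card (cm α).range) := by ring
        _ ≤ _ := hoff
        _ = _ := by ring
    exact Nat.le_of_mul_le_mul_left h4 (Nat.mul_pos hposB hposA)
  have h5 := rank_bound hWU α hk1' (by rw [← hk, pow_orderOf_eq_one]) hc
  have h6 : α ^ (2 ^ (k - 1)) = ψ ⟨a₁, ha₁⟩ := by
    rw [← hj]
    have h7 : 2 ^ k ∣ j + j := by
      rw [← hk]
      apply orderOf_dvd_of_pow_eq_one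
      rw [pow_add, hj, hαsq]
    have h8 : ¬ 2 ^ k ∣ j := by
      intro h
      apply hα1
      rw [← hj, ← orderOf_dvd_iff_pow_eq_one, hk]
      exact h
    obtain ⟨i, rfl⟩ : ∃ i, k = i + 1 := ⟨k - 1, by omega⟩
    simp only [Nat.add_sub_cancel]
    rw [pow_succ] at h7 h8
    have h9 : 2 ^ i ∣ j := by
      rw [← two_mul, mul_comm (2 ^ i)] at h7
      exact Nat.dvd_of_mul_dvd_mul_left (by norm_num) h7
    obtain ⟨m, rfl⟩ := h9
    have h10 : ¬ 2 ∣ m := fun h => h8 (Nat.mul_dvd_mul_left _ h)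
    obtain ⟨m', hm'⟩ : ∃ m', m = 2 * m' + 1 := ⟨m / 2, by omega⟩
    rw [hm', Nat.mul_add, mul_one, pow_add, ← mul_assoc, ← pow_succ, pow_mul, ← hk, pow_orderOf_eq_one,
      one_pow, one_mul]
  rw [h6] at h5
  exact exists_Tv hWU hα1 hαsq h5

theorem elem_of_off (hV : ∀ v : V, v * v = 1) {F A : Subgroup (MulAut V)} (hF : Odd (Nat.card F))
    (hA2 : IsPGroup 2 A) (hAF : A ≤ normalizer (F : Set (MulAut V)))
    (hcomm : ∀ a ∈ A, ∀ b ∈ A, a * b = b * a) (hfaith : ∀ a ∈ A, (∀ f ∈ F, a * f = f * a) → a = 1)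
    (hoff : ∀ B ≤ A, Nat.card B * Nat.card (fixedBy B) ≤ Nat.card A * Nat.card (fixedBy A)) :
    ∀ a ∈ A, a * a = 1 := by
  have : Fact (Nat.Prime 2) := ⟨Nat.prime_two⟩
  by_contra hcon
  push Not at hcon
  obtain ⟨b, hb, hb2⟩ := hcon
  obtain ⟨m, hm⟩ : ∃ m, orderOf b = 2 ^ m := by
    obtain ⟨m, hm⟩ := hA2 ⟨b, hb⟩
    have h1 : b ^ 2 ^ m = 1 := congrArg Subtype.val hm
    obtain ⟨i, _, hi⟩ := (Nat.dvd_prime_pow Nat.prime_two).1 (orderOf_dvd_of_pow_eq_one h1)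
    exact ⟨i, hi⟩
  have hm2 : 2 ≤ m := by
    by_contra h
    apply hb2
    rw [← sq, ← orderOf_dvd_iff_pow_eq_one, hm]
    have : m ≤ 1 := by omega
    calc 2 ^ m ∣ 2 ^ 1 := pow_dvd_pow 2 this
      _ = 2 := pow_one 2
  obtain ⟨i, rfl⟩ : ∃ i, m = i + 2 := ⟨m - 2, by omega⟩
  set c := b ^ 2 ^ i with hc
  have hcA : c ∈ A := pow_mem hb _
  set a₁ := c * c with ha₁
  have ha₁A : a₁ ∈ A := mul_mem hcA hcA
  have ha₁' : a₁ = b ^ 2 ^ (i + 1) := by
    rw [ha₁, hc, ← pow_add, ← mul_two, ← pow_succ]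
  have hsq : a₁ * a₁ = 1 := by
    rw [ha₁', ← pow_add, ← mul_two, ← pow_succ, ← hm, pow_orderOf_eq_one]
  have hne : a₁ ≠ 1 := by
    intro h
    rw [ha₁', ← orderOf_dvd_iff_pow_eq_one, hm] at h
    have := (Nat.pow_dvd_pow_iff_le_right (by norm_num : 1 < 2)).1 h
    omega
  have hna : ∃ f ∈ F, a₁ * f ≠ f * a₁ := by
    by_contra hcon
    push Not at hcon
    exact hne (hfaith a₁ ha₁A hcon)
  obtain ⟨B, hBA, a, haA, hBa, ⟨x, hx, hxB, hax⟩, hker⟩ := exists_B hV hF hA2 hAF hcomm ha₁A hna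
  have hAs : ∀ y ∈ A, y ∈ stab (fixedBy B) := fun y hy => comm_stab fun b hb => hcomm b (hBA hb) y hy
  have hnB : a₁ ∉ B := fun h => hax (hxB a₁ h)
  obtain ⟨z, hz⟩ := tv_on hV hA2 hcomm hBA haA hBa hker (hoff B hBA) ha₁A (hAs _ ha₁A) hsq hnB
  set W := fixedBy B with hW
  have hxs : x ∈ stab W := comm_stab hxB
  let FU : Subgroup (MulAut W) := ((F ⊓ centralizer (B : Set (MulAut V))).subgroupOf (stab W)).map (res W)
  have hFU : Odd (Nat.card FU) := by
    refine hF.of_dvd_nat ?_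
    refine (Subgroup.card_map_dvd _ (res W)).trans ?_
    refine (Subgroup.card_comap_dvd_of_injective _ (stab W).subtype (stab W).subtype_injective).trans ?_
    exact Subgroup.card_dvd_of_le inf_le_left
  have hWU : ∀ u : W, u * u = 1 := fun u => Subtype.ext (hV u)
  have h1 := no_root hWU hz hFU (c := res W ⟨c, hAs c hcA⟩) (by rw [← map_mul]; rfl) (by
    rintro _ ⟨⟨f, hfs⟩, hf, rfl⟩
    have hf' : f ∈ F ∧ f ∈ centralizer (B : Set (MulAut V)) := hf
    refine ⟨⟨c, hAs c hcA⟩ * ⟨f, hfs⟩ * ⟨c, hAs c hcA⟩⁻¹, ?_, by rw [map_mul, map_mul, map_inv]⟩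
    change c * f * c⁻¹ ∈ F ⊓ centralizer (B : Set (MulAut V))
    refine ⟨(mem_normalizer_iff.1 (hAF hcA) _).1 hf'.1, mem_centralizer_iff.2 fun y hy => ?_⟩
    have c1 : Commute y c := hcomm y (hBA hy) c hcA
    have c2 : Commute y f := mem_centralizer_iff.1 hf'.2 y hy
    exact (c1.mul_right c2).mul_right c1.inv_right) (f := res W ⟨x, hxs⟩)
    ⟨⟨x, hxs⟩, ⟨hx, mem_centralizer_iff.2 hxB⟩, rfl⟩
  rw [← map_mul, ← map_inv, ← map_mul, ← mul_inv_eq_one, ← map_inv, ← map_mul, res_eq_one] at h1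
  have h2 : ∀ v ∈ W, (x * a₁ * x⁻¹ * a₁⁻¹) v = v := h1
  apply hax
  have he := H62.axb hV B (hA2.to_le hBA) (x * a₁ * x⁻¹ * a₁⁻¹) ?_ ?_ h2
  · exact (mul_inv_eq_iff_eq_mul.1 (mul_inv_eq_one.1 he)).symm
  · refine odd_of_mem hF ?_
    have h3 := mul_mem hx ((mem_normalizer_iff.1 (hAF ha₁A) _).1 (inv_mem hx))
    have e : x * a₁ * x⁻¹ * a₁⁻¹ = x * (a₁ * x⁻¹ * a₁⁻¹) := by group
    rw [e]; exact h3
  · intro y hy
    have c1 : Commute y a₁ := hcomm y (hBA hy) a₁ ha₁A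
    have c2 : Commute y x := hxB y hy
    exact ((c2.mul_right c1).mul_right c2.inv_right).mul_right c1.inv_right

end Cfsg.Agent.H65.FoF
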