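import Cfsg.Agent.H65.FoF3

set_option autoImplicit false
set_option linter.unusedSectionVars false
set_option linter.unusedSimpArgs false
set_option linter.unusedVariables false

/-!
Best offenders are generated by transvections.
-/

namespace Cfsg.Agent.H65.FoF

open Subgroup Cfsg
open H34 (fixedBy mem_fixedBy fixedBy_anti)
open H62 (cm cm_apply)

universe u

variable {V : Type u} [CommGroup V] [Finite V]

/-- self-centralising odd order normal subgroup -/
structure OddF (H F : Subgroup (MulAut V)) : Prop where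
  le : F ≤ H
  odd : Odd (Nat.card F)
  conj : ∀ h ∈ H, ∀ f ∈ F, h * f * h⁻¹ ∈ F
  cent : ∀ h ∈ H, (∀ f ∈ F, h * f = f * h) → h ∈ F

theorem OddF.norm {H F : Subgroup (MulAut V)} (c : OddF H F) : H ≤ normalizer (F : Set (MulAut V)) := by
  intro h hh
  rw [mem_normalizer_iff]
  intro y
  refine ⟨c.conj h hh y, fun hy => ?_⟩
  have := c.conj h⁻¹ (inv_mem hh) _ hy
  have e : h⁻¹ * (h * y * h⁻¹) * h⁻¹⁻¹ = y := by group
  rwa [e] at this

theorem OddF.faith {H F : Subgroup (MulAut V)} (c : OddF H F) {h : MulAut V} (hh : h ∈ H)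
    (h2 : ∃ k : ℕ, h ^ 2 ^ k = 1) (hf : ∀ f ∈ F, h * f = f * h) : h = 1 := by
  have h3 := odd_of_mem c.odd (c.cent h hh hf)
  obtain ⟨k, hk⟩ := h2
  obtain ⟨i, _, hi⟩ := (Nat.dvd_prime_pow Nat.prime_two).1 (orderOf_dvd_of_pow_eq_one hk)
  rw [hi] at h3
  rcases Nat.eq_zero_or_pos i with h0 | h0
  · rw [h0, pow_zero] at hi
    exact orderOf_eq_one_iff.1 hi
  · exfalso
    rw [Nat.odd_pow_iff (by omega)] at h3
    exact absurd h3 (by decide)

theorem oddF_fitting (H : Subgroup (MulAut V)) [Group.IsSolvable H] (hred : pCore 2 H = ⊥) :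
    OddF H ((fittingSubgroup H).map H.subtype) where
  le := map_subtype_le _
  odd := by
    rw [Subgroup.card_map_of_injective H.subtype_injective]
    exact H34.odd_card_fitting hred
  conj := by
    rintro a ha _ ⟨f, hf, rfl⟩
    exact ⟨⟨a, ha⟩ * f * (⟨a, ha⟩ : H)⁻¹, Subgroup.Normal.conj_mem inferInstance f hf _, rfl⟩
  cent := by
    intro a ha hf
    have h1 : (⟨a, ha⟩ : H) ∈ Subgroup.centralizer (fittingSubgroup H : Set H) := by
      rw [Subgroup.mem_centralizer_iff]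
      intro f hf'
      apply Subtype.ext
      exact (hf f ⟨f, hf', rfl⟩).symm
    have h2 : (⟨a, ha⟩ : H) ∈ fittingSubgroup H := Cfsg.Agent.Solv.centralizer_fitting_le h1
    exact ⟨_, h2, rfl⟩

theorem key_step (hV : ∀ v : V, v * v = 1) {F A : Subgroup (MulAut V)} (hF : Odd (Nat.card F))
    (hAF : A ≤ normalizer (F : Set (MulAut V)))
    (hcomm : ∀ a ∈ A, ∀ b ∈ A, a * b = b * a) (hsq : ∀ a ∈ A, a * a = 1)
    (hfaith : ∀ a ∈ A, (∀ f ∈ F, a * f = f * a) → a = 1)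
    (hoff : ∀ B ≤ A, Nat.card B * Nat.card (fixedBy B) ≤ Nat.card A * Nat.card (fixedBy A))
    {a₁ : MulAut V} (ha₁ : a₁ ∈ A) (hne : a₁ ≠ 1) :
    ∃ B ≤ A, a₁ ∉ B ∧ Nat.card A ≤ 2 * Nat.card B ∧
      ∀ C ≤ B, Nat.card C * Nat.card (fixedBy C) ≤ Nat.card B * Nat.card (fixedBy B) := by
  have : Fact (Nat.Prime 2) := ⟨Nat.prime_two⟩
  have hna : ∃ f ∈ F, a₁ * f ≠ f * a₁ := by
    by_contra hcon
    push Not at hcon
    exact hne (hfaith a₁ ha₁ hcon)
  obtain ⟨B, hBA, a, haA, hBa, ⟨x, hx, hxB, hax⟩, hker⟩ :=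
    exists_B hV hF (H62.isPGroup_two_of_sq A hsq) hAF hcomm ha₁ hna
  have hnB : a₁ ∉ B := fun h => hax (hxB a₁ h)
  have haa : a * a = 1 := hsq a haA
  have hcardA : Nat.card A ≤ 2 * Nat.card B := by
    have h1 : zpowers a ≤ normalizer (B : Set (MulAut V)) := by
      rw [zpowers_le, mem_normalizer_iff]
      intro y
      constructor
      · intro hy
        rw [hcomm a haA y (hBA hy), mul_inv_cancel_right]; exact hy
      · intro hy
        have h2 : y = a⁻¹ * (a * y * a⁻¹) * a := by group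
        have h3 : a⁻¹ * (a * y * a⁻¹) = (a * y * a⁻¹) * a⁻¹ := hcomm _ (inv_mem haA) _ (hBA hy)
        rw [h2, h3, inv_mul_cancel_right]; exact hy
    have h2 := Cop.relIndex_sup_eq h1
    rw [sup_comm, hBa] at h2
    have h3 : B.relIndex (zpowers a) ≤ 2 := by
      refine (Nat.le_of_dvd Nat.card_pos (Subgroup.relIndex_dvd_card _ _)).trans ?_
      rw [Nat.card_zpowers]
      exact orderOf_le_of_pow_eq_one (by norm_num) (by rw [sq]; exact haa)
    have h4 := H62.card_mul_relIndex' hBA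
    rw [← h4, h2, mul_comm]
    exact Nat.mul_le_mul_right _ h3
  refine ⟨B, hBA, hnB, hcardA, ?_⟩
  have hlt : fixedBy A < fixedBy B := by
    refine lt_of_le_of_ne (fixedBy_anti hBA) fun h => hnB ?_
    apply hker a₁ ha₁
    intro v hv
    rw [← h] at hv
    exact hv a₁ ha₁
  have h2 := two_mul_card_le hlt
  intro C hC
  calc Nat.card C * Nat.card (fixedBy C) ≤ Nat.card A * Nat.card (fixedBy A) := hoff C (hC.trans hBA)
    _ ≤ (2 * Nat.card B) * Nat.card (fixedBy A) := Nat.mul_le_mul_right _ hcardA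
    _ = Nat.card B * (2 * Nat.card (fixedBy A)) := by ring
    _ ≤ _ := Nat.mul_le_mul_left _ h2

theorem gen_tv (hV : ∀ v : V, v * v = 1) {F : Subgroup (MulAut V)} (hF : Odd (Nat.card F)) :
    ∀ (n : ℕ) (A : Subgroup (MulAut V)), Nat.card A = n → A ≤ normalizer (F : Set (MulAut V)) →
    (∀ a ∈ A, ∀ b ∈ A, a * b = b * a) → (∀ a ∈ A, a * a = 1) →
    (∀ a ∈ A, (∀ f ∈ F, a * f = f * a) → a = 1) →
    (∀ B ≤ A, Nat.card B * Nat.card (fixedBy B) ≤ Nat.card A * Nat.card (fixedBy A)) →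
    A ≤ closure {t | t ∈ A ∧ ∃ z, Tv t z} := by
  intro n
  induction n using Nat.strong_induction_on with
  | _ n ih =>
  intro A hn hAF hcomm hsq hfaith hoff
  by_cases hA1 : A = ⊥
  · subst hA1; exact bot_le
  obtain ⟨⟨a₁, ha₁⟩, hne'⟩ := Subgroup.ne_bot_iff_exists_ne_one.1 hA1
  have hne : a₁ ≠ 1 := fun h => hne' (Subtype.ext h)
  have key := fun (a : MulAut V) (ha : a ∈ A) (h1 : a ≠ 1) =>
    key_step hV hF hAF hcomm hsq hfaith hoff ha h1
  have sub : ∀ a ∈ A, a ≠ 1 → ∀ B ≤ A, a ∉ B →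
      (∀ C ≤ B, Nat.card C * Nat.card (fixedBy C) ≤ Nat.card B * Nat.card (fixedBy B)) →
      B ≤ closure {t | t ∈ A ∧ ∃ z, Tv t z} := by
    intro a ha h1 B hBA haB hB
    have hlt : B < A := lt_of_le_of_ne hBA fun h => haB (h ▸ ha)
    have hc : Nat.card B < n := by
      rw [← hn]
      exact Set.Finite.card_lt_card (Set.toFinite _) hlt
    refine (ih _ hc B rfl (hBA.trans hAF) (fun a ha b hb => hcomm a (hBA ha) b (hBA hb))
      (fun a ha => hsq a (hBA ha)) (fun a ha => hfaith a (hBA ha)) hB).trans (closure_mono ?_)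
    rintro t ⟨ht, ht'⟩
    exact ⟨hBA ht, ht'⟩
  obtain ⟨B, hBA, hnB, hcB, hoB⟩ := key a₁ ha₁ hne
  have hBc := sub a₁ ha₁ hne B hBA hnB hoB
  by_cases hB : B = ⊥
  · subst hB
    rw [card_bot, mul_one] at hcB
    have h1 : zpowers a₁ = A := by
      apply Subgroup.eq_of_le_of_card_ge (by rw [zpowers_le]; exact ha₁)
      rw [Nat.card_zpowers]
      refine hcB.trans ?_
      have : orderOf a₁ = 2 := orderOf_eq_prime (by rw [sq]; exact hsq a₁ ha₁) hne
      exact this.ge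
    have h2 : (cm a₁).ker = fixedBy A := by
      ext v
      rw [← h1, H34.mem_fixedBy_zpowers, MonoidHom.mem_ker, cm_apply, mul_inv_eq_one]
    have h3 := hoff ⊥ bot_le
    have h4 : fixedBy (⊥ : Subgroup (MulAut V)) = ⊤ := by
      rw [eq_top_iff]
      intro v _ a ha
      rw [mem_bot] at ha
      rw [ha]; rfl
    rw [card_bot, one_mul, h4, card_top] at h3
    have h5 := Subgroup.card_mul_index (cm a₁).ker
    rw [Subgroup.index_ker, h2] at h5
    have hpos : 0 < Nat.card (fixedBy A) := Nat.card_pos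
    have h6 : Nat.card (cm a₁).range ≤ 2 := by
      apply Nat.le_of_mul_le_mul_left _ hpos
      rw [h5]
      refine h3.trans ?_
      rw [mul_comm]
      exact Nat.mul_le_mul_left _ hcB
    have h7 := exists_Tv hV hne (hsq a₁ ha₁) h6
    conv_lhs => rw [← h1]
    rw [zpowers_le]
    exact subset_closure ⟨ha₁, h7⟩
  · obtain ⟨⟨a₂, ha₂⟩, hne₂'⟩ := Subgroup.ne_bot_iff_exists_ne_one.1 hB
    have hne₂ : a₂ ≠ 1 := fun h => hne₂' (Subtype.ext h)
    obtain ⟨B₂, hB₂A, hnB₂, hcB₂, hoB₂⟩ := key a₂ (hBA ha₂) hne₂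
    have hBc₂ := sub a₂ (hBA ha₂) hne₂ B₂ hB₂A hnB₂ hoB₂
    have hltA : B < A := lt_of_le_of_ne hBA fun h => hnB (h ▸ ha₁)
    have hcA := two_mul_card_le hltA
    have hnot : ¬ B₂ ≤ B := by
      intro h
      have h1 : B₂ < B := lt_of_le_of_ne h fun h => hnB₂ (h ▸ ha₂)
      have h2 := two_mul_card_le h1
      have h3 : 0 < Nat.card B := Nat.card_pos
      omega
    have hlt : B < B ⊔ B₂ := lt_of_le_of_ne le_sup_left fun h => hnot (h ▸ le_sup_right)
    have h4 := two_mul_card_le hlt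
    have h5 : B ⊔ B₂ = A := Subgroup.eq_of_le_of_card_ge (sup_le hBA hB₂A) (by omega)
    conv_lhs => rw [← h5]
    exact sup_le hBc hBc₂

theorem off_gen (hV : ∀ v : V, v * v = 1) {H F : Subgroup (MulAut V)} (c : OddF H F)
    {A : Subgroup (MulAut V)} (hAH : A ≤ H) (hA2 : IsPGroup 2 A)
    (hcomm : ∀ a ∈ A, ∀ b ∈ A, a * b = b * a)
    (hoff : ∀ B ≤ A, Nat.card B * Nat.card (fixedBy B) ≤ Nat.card A * Nat.card (fixedBy A)) :
    A ≤ closure {t | t ∈ A ∧ ∃ z, Tv t z} := by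
  have hfaith : ∀ a ∈ A, (∀ f ∈ F, a * f = f * a) → a = 1 := by
    intro a ha hf
    refine c.faith (hAH ha) ?_ hf
    obtain ⟨k, hk⟩ := hA2 ⟨a, ha⟩
    exact ⟨k, congrArg Subtype.val hk⟩
  exact gen_tv hV c.odd _ A rfl (hAH.trans c.norm) hcomm
    (elem_of_off hV c.odd hA2 (hAH.trans c.norm) hcomm hfaith hoff) hfaith hoff

end Cfsg.Agent.H65.FoF
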