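import Cfsg.Agent.H65.FoF4
import Cfsg.Agent.ThreeTransp.Sym3

set_option autoImplicit false
set_option linter.unusedSectionVars false
set_option linter.unusedSimpArgs false
set_option linter.unusedVariables false

/-!
The group generated by transvections is a direct product of symmetric groups of degree three.
-/

namespace Cfsg.Agent.H65.FoF

open Subgroup Cfsg
open H34 (fixedBy mem_fixedBy fixedBy_anti)
open H62 (cm cm_apply)

universe u

variable {V : Type u} [CommGroup V] [Finite V]

structure Trip (F : Subgroup (MulAut V)) (t : MulAut V) (z : V) (y : MulAut V) : Prop where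
  mem : y ∈ F
  tv : Tv t z
  cube : y * y * y = 1
  eq : y = t * (y * t * y⁻¹)
  ne : y * t * y⁻¹ ≠ t
  prod : z * y z * y (y z) = 1
  orb : ∀ r ∈ orb F t, r = t ∨ r = y * t * y⁻¹ ∨ r = y * y * t * (y * y)⁻¹
  app : ∀ v, y v * v⁻¹ = 1 ∨ y v * v⁻¹ = z ∨ y v * v⁻¹ = y z ∨ y v * v⁻¹ = y (y z)
  braid : t * (y * t * y⁻¹) * t = (y * t * y⁻¹) * t * (y * t * y⁻¹)

theorem exists_trip (hV : ∀ v : V, v * v = 1) {H F : Subgroup (MulAut V)} (c : OddF H F)
    {t : MulAut V} (htH : t ∈ H) {z : V} (ht : Tv t z) : ∃ y, Trip F t z y := by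
  have ht2 := ht.sq hV
  have hti := ht.inv hV
  have htF : ∀ f ∈ F, t * f * t⁻¹ ∈ F := c.conj t htH
  obtain ⟨f, hf, hne⟩ : ∃ f ∈ F, t ≠ f * t * f⁻¹ := by
    by_contra hcon
    push Not at hcon
    apply ht.ne_one
    refine c.faith htH ⟨1, by rw [pow_one, sq]; exact ht2⟩ fun f hf => ?_
    exact (mul_inv_eq_iff_eq_mul.1 (hcon f hf).symm).symm
  set s := f * t * f⁻¹ with hs
  have hsT : Tv s (f z) := ht.conj f
  have hs2 := hsT.sq hV
  have hsi := hsT.inv hV
  have hso : s ∈ orb F t := ⟨f, hf, rfl⟩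
  clear_value s
  have hyF : t * s ∈ F := orb_prod_mem ht2 htF (orb_self F t) hso
  obtain ⟨h1, h2⟩ := ht.ne_fix hV hsT (odd_of_mem c.odd hyF) hne
  have hb := ht.braid hV hsT h1 h2
  have e1 : (t * s) * t * (t * s)⁻¹ = s := by
    rw [mul_inv_rev, hti, hsi]
    calc t * s * t * (s * t) = t * (s * t * s) * t := by simp only [mul_assoc]
      _ = t * (t * s * t) * t := by rw [hb]
      _ = (t * t) * s * (t * t) := by simp only [mul_assoc]
      _ = s := by rw [ht2, one_mul, mul_one]
  have e2 : (t * s) * (t * s) * t * ((t * s) * (t * s))⁻¹ = t * s * t := by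
    calc (t * s) * (t * s) * t * ((t * s) * (t * s))⁻¹ = (t * s) * ((t * s) * t * (t * s)⁻¹) * (t * s)⁻¹ := by
          group
      _ = (t * s) * s * (t * s)⁻¹ := by rw [e1]
      _ = t * (s * s) * (s⁻¹ * t⁻¹) := by rw [mul_inv_rev]; simp only [mul_assoc]
      _ = t * s * t := by rw [hs2, hti, hsi, mul_one, mul_assoc]
  have hyz : (t * s) z = f z := by
    have h3 := ht.conj (t * s)
    rw [e1] at h3
    exact h3.centre hsT
  have hyyz : (t * s) (f z) = f z * z := by
    rw [MulAut.mul_apply, hsT.fix, h2]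
  refine ⟨t * s, hyF, ht, ?_, ?_, ?_, ?_, ?_, ?_, ?_⟩
  · calc t * s * (t * s) * (t * s) = (t * s * t) * (s * t * s) := by simp only [mul_assoc]
      _ = (t * s * t) * (t * s * t) := by rw [hb]
      _ = t * s * (t * t) * s * t := by simp only [mul_assoc]
      _ = 1 := by rw [ht2, mul_one, mul_assoc t s s, hs2, mul_one, ht2]
  · rw [e1]
  · rw [e1]; exact hne.symm
  · rw [hyz, hyyz, ← mul_assoc, mul_assoc z, hV, mul_one, hV]
  · intro r hr
    rw [e1, e2]
    exact orb_three hV ht c.odd htF hso hne hr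
  · intro v
    rw [hyz, hyyz, MulAut.mul_apply]
    rcases hsT.app v with h5 | h5 <;> rcases ht.app v with h6 | h6
    · left; rw [h5, h6, mul_inv_cancel]
    · right; left; rw [h5, h6, mul_right_comm, mul_inv_cancel, one_mul]
    · right; right; right
      rw [h5, map_mul, h6, h2, mul_right_comm, mul_inv_cancel, one_mul]
    · right; right; left
      rw [h5, map_mul, h6, h2, mul_right_comm, mul_right_comm v, mul_inv_cancel, one_mul, mul_comm (f z),
        ← mul_assoc, hV, one_mul]
  · rw [e1]; exact hb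

theorem Trip.yz_ne (hV : ∀ v : V, v * v = 1) {F : Subgroup (MulAut V)} {t y : MulAut V} {z : V}
    (T : Trip F t z y) : y z ≠ z := by
  intro h
  have := T.prod
  rw [h, h, hV, one_mul] at this
  exact T.tv.zne this

theorem Trip.cube_apply {F : Subgroup (MulAut V)} {t y : MulAut V} {z : V}
    (T : Trip F t z y) (v : V) : y (y (y v)) = v := by
  have := DFunLike.congr_fun T.cube v
  exact this

theorem block (hV : ∀ v : V, v * v = 1) {H F : Subgroup (MulAut V)} (c : OddF H F) {t y r : MulAut V}
    {z w : V} (T : Trip F t z y) (htH : t ∈ H) (hrH : r ∈ H) (hr : Tv r w) :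
    r ∈ orb F t ∨ ∀ s ∈ orb F t, r * s = s * r := by
  have ht := T.tv
  by_cases hyr : y * r * y⁻¹ = r
  · right
    have hyr' : r * y = y * r := (mul_inv_eq_iff_eq_mul.1 hyr).symm
    have hyw : y w = w := by
      have h1 := hr.conj y
      rw [hyr] at h1
      exact h1.centre hr
    have hsT : Tv (y * t * y⁻¹) (y z) := ht.conj y
    have htw : t w = w := by
      by_contra hne
      have h1 := ht.app' hne
      have h2 : t ((y * t * y⁻¹) w) = w := by
        rw [← MulAut.mul_apply, ← T.eq, hyw]
      have h3 : (y * t * y⁻¹) w = t w := by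
        rw [← ht.tt hV ((y * t * y⁻¹) w), h2]
      have h4 : (y * t * y⁻¹) w ≠ w := by rw [h3]; exact hne
      have h5 := hsT.app' h4
      rw [h3, h1] at h5
      exact T.yz_ne hV (mul_left_cancel h5).symm
    have hrz : r z = z := by
      by_contra hne
      have h1 := hr.app' hne
      have hcomm : ∀ v, r (y v) = y (r v) := fun v => DFunLike.congr_fun hyr' v
      have h2 : r (y z) = y z * w := by rw [hcomm, h1, map_mul, hyw]
      have h3 : r (y (y z)) = y (y z) * w := by rw [hcomm, h2, map_mul, hyw]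
      have h4 : r (z * y z * y (y z)) = w := by
        rw [map_mul, map_mul, h1, h2, h3]
        calc z * w * (y z * w) * (y (y z) * w) = (z * y z * y (y z)) * ((w * w) * w) := by
              simp only [mul_assoc, mul_left_comm w]
          _ = w := by rw [T.prod, hV, one_mul, one_mul]
      rw [T.prod, map_one] at h4
      exact hr.zne h4.symm
    have hrt : r * t = t * r := hr.comm ht htw hrz
    intro s hs
    rcases T.orb s hs with h | h | h
    · rw [h]; exact hrt
    · rw [h]
      have c1 : Commute r y := hyr'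
      have c2 : Commute r t := hrt
      exact (c1.mul_right c2).mul_right c1.inv_right
    · rw [h]
      have c1 : Commute r y := hyr'
      have c2 : Commute r t := hrt
      exact ((c1.mul_right c1).mul_right c2).mul_right (c1.mul_right c1).inv_right
  · left
    have hrF : ∀ f ∈ F, r * f * r⁻¹ ∈ F := c.conj r hrH
    have hro : y * r * y⁻¹ ∈ orb F r := ⟨y, T.mem, rfl⟩
    have hr' : Tv (y * r * y⁻¹) (y w) := hr.conj y
    obtain ⟨h1, h2⟩ := hr.ne_fix hV hr' (odd_of_mem c.odd (orb_prod_mem (hr.sq hV) hrF (orb_self F r) hro))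
      (fun h => hyr h.symm)
    -- h1 : r' w = w * y w ; h2 : r (y w) = y w * w
    have hyw : y w ≠ w := by
      intro h
      rw [h, hr.fix, hV] at h2
      exact hr.zne h2
    have hyy : y (y w) = y w * w := by
      have h3 : y * y * r * (y * y)⁻¹ ∈ orb F r := ⟨y * y, mul_mem T.mem T.mem, rfl⟩
      have e : y * y * r * (y * y)⁻¹ = y * (y * r * y⁻¹) * y⁻¹ := by group
      have hinj : ∀ a b : MulAut V, y * a * y⁻¹ = y * b * y⁻¹ → a = b := by
        intro a b h
        exact mul_left_cancel (mul_right_cancel h)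
      rcases orb_three hV hr c.odd hrF hro (fun h => hyr h.symm) h3 with h4 | h4 | h4
      · exfalso
        apply hyr
        rw [e] at h4
        have h5 : y * (y * (y * r * y⁻¹) * y⁻¹) * y⁻¹ = r := by
          have e2 : y * (y * (y * r * y⁻¹) * y⁻¹) * y⁻¹ = (y * y * y) * r * (y * y * y)⁻¹ := by group
          rw [e2, T.cube, one_mul, inv_one, mul_one]
        rw [h4] at h5
        exact h5
      · exfalso
        rw [e] at h4
        exact hyr (hinj _ _ h4)
      · have h5 : Tv (y * y * r * (y * y)⁻¹) (y (y w)) := hr.conj (y * y)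
        have h6 : Tv (r * (y * r * y⁻¹) * r) (r (y w)) := by
          have := hr'.conj r
          rwa [hr.inv hV] at this
        rw [h4] at h5
        rw [h5.centre h6, h2]
    have hyinv : y w * w⁻¹ = y (y w) := by
      rw [hyy, inv_eq_of_mul_eq_one_left (hV w)]
    have hcen : w = z ∨ w = y z ∨ w = y (y z) := by
      have h3 := T.app w
      rw [hyinv] at h3
      have h4 := T.cube_apply w
      rcases h3 with h | h | h | h
      · exfalso
        rw [h, map_one] at h4
        exact hr.zne h4.symm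
      · right; left; rw [h] at h4; exact h4.symm
      · right; right; rw [h] at h4; exact h4.symm
      · left
        rw [h, T.cube_apply] at h4
        exact h4.symm
    have hs : ∃ s ∈ orb F t, Tv s w ∧ y * s * y⁻¹ ≠ s := by
      rcases hcen with h | h | h
      · exact ⟨t, orb_self F t, h ▸ ht, T.ne⟩
      · refine ⟨y * t * y⁻¹, ⟨y, T.mem, rfl⟩, h ▸ ht.conj y, fun h => T.ne ?_⟩
        exact mul_left_cancel (mul_right_cancel h)
      · refine ⟨y * y * t * (y * y)⁻¹, ⟨y * y, mul_mem T.mem T.mem, rfl⟩, ?_, fun h => T.ne ?_⟩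
        · have := ht.conj (y * y)
          rw [MulAut.mul_apply] at this
          exact h ▸ this
        · have e : y * (y * y * t * (y * y)⁻¹) * y⁻¹ = (y * y) * (y * t * y⁻¹) * (y * y)⁻¹ := by group
          rw [e] at h
          exact mul_left_cancel (mul_right_cancel h)
    obtain ⟨s, hso, hsT, hsy⟩ := hs
    suffices h : r = s by rw [h]; exact hso
    by_contra hne
    have hsH : s ∈ H := by
      obtain ⟨f, hf, rfl⟩ := hso
      exact mul_mem (mul_mem (c.le hf) htH) (inv_mem (c.le hf))
    have hgT : Tv (r * s) w := by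
      refine ⟨?_, ?_, ?_⟩
      · by_contra hcon
        push Not at hcon
        apply hne
        have h3 : r * s = 1 := MulEquiv.ext hcon
        rw [eq_inv_of_mul_eq_one_left h3, hsT.inv hV]
      · rw [MulAut.mul_apply, hsT.fix, hr.fix]
      · intro v
        rw [MulAut.mul_apply]
        rcases hsT.app v with h5 | h5 <;> rcases hr.app v with h6 | h6
        · left; rw [h5, h6]
        · right; rw [h5, h6]
        · right; rw [h5, map_mul, h6, hr.fix]
        · left; rw [h5, map_mul, h6, hr.fix, mul_assoc, hV, mul_one]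
    have hsF : ∀ f ∈ F, s * f * s⁻¹ ∈ F := c.conj s hsH
    have hs'o : y * s * y⁻¹ ∈ orb F s := ⟨y, T.mem, rfl⟩
    obtain ⟨-, h4⟩ := hsT.ne_fix hV (hsT.conj y)
      (odd_of_mem c.odd (orb_prod_mem (hsT.sq hV) hsF (orb_self F s) hs'o)) (fun h => hsy h.symm)
    have hg : (r * s) (y w) = y w := by
      rw [MulAut.mul_apply, h4, map_mul, h2, hr.fix, mul_assoc, hV, mul_one]
    have hgH : r * s ∈ H := mul_mem hrH hsH
    have hodd : Odd (orderOf ((y * (r * s) * y⁻¹) * (r * s))) := by
      refine odd_of_mem c.odd ?_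
      have h5 := mul_mem T.mem (c.conj _ hgH _ (inv_mem T.mem))
      rw [hgT.inv hV] at h5
      have e : (y * (r * s) * y⁻¹) * (r * s) = y * ((r * s) * y⁻¹ * (r * s)) := by group
      rw [e]; exact h5
    have h6 := (hgT.conj y).eq_of_fix hV hgT hodd hg
    have h7 := hgT.conj y
    rw [h6] at h7
    exact hyw (h7.centre hgT)

/-- the group generated by the `F`-conjugates of a transvection -/
theorem closure_orb (hV : ∀ v : V, v * v = 1) {H F : Subgroup (MulAut V)} (c : OddF H F) {t : MulAut V}
    {z : V} (htH : t ∈ H) (ht : Tv t z) : Nonempty (closure (orb F t) ≃* Equiv.Perm (Fin 3)) := by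
  obtain ⟨y, T⟩ := exists_trip hV c htH ht
  have e : closure (orb F t) = closure ({t, y * t * y⁻¹} : Set (MulAut V)) := by
    apply le_antisymm
    · rw [closure_le]
      intro r hr
      have h1 : t ∈ closure ({t, y * t * y⁻¹} : Set (MulAut V)) := subset_closure (Set.mem_insert _ _)
      have h2 : y * t * y⁻¹ ∈ closure ({t, y * t * y⁻¹} : Set (MulAut V)) :=
        subset_closure (Set.mem_insert_of_mem _ rfl)
      have h3 : y ∈ closure ({t, y * t * y⁻¹} : Set (MulAut V)) := by
        have := mul_mem h1 h2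
        rwa [← T.eq] at this
      rcases T.orb r hr with h | h | h
      · rw [h]; exact h1
      · rw [h]; exact h2
      · rw [h]; exact mul_mem (mul_mem (mul_mem h3 h3) h1) (inv_mem (mul_mem h3 h3))
    · rw [closure_le]
      rintro r (rfl | rfl)
      · exact subset_closure (orb_self F r)
      · exact subset_closure ⟨y, T.mem, rfl⟩
  rw [e]
  exact ThreeTransp.nonempty_closure_pair_mulEquiv_perm (T.tv.sq hV) ((T.tv.conj y).sq hV) (Ne.symm T.ne)
    T.braid T.tv.ne_one

theorem orb_eq {G : Type*} [Group G] {F : Subgroup G} {t s : G} (h : s ∈ orb F t) : orb F s = orb F t := by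
  obtain ⟨f, hf, rfl⟩ := h
  ext r
  constructor
  · rintro ⟨g, hg, rfl⟩
    exact ⟨g * f, mul_mem hg hf, by group⟩
  · rintro ⟨g, hg, rfl⟩
    exact ⟨g * f⁻¹, mul_mem hg (inv_mem hf), by group⟩

theorem comm_closure {G : Type*} [Group G] {S T : Set G} (h : ∀ s ∈ S, ∀ t ∈ T, s * t = t * s) :
    ∀ x ∈ closure S, ∀ y ∈ closure T, x * y = y * x := by
  have h1 : closure S ≤ centralizer T := by
    rw [closure_le]
    intro s hs
    rw [SetLike.mem_coe, mem_centralizer_iff]
    intro t ht
    exact (h s hs t ht).symm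
  have h2 : closure T ≤ centralizer (closure S : Set G) := by
    rw [closure_le]
    intro t ht
    rw [SetLike.mem_coe, mem_centralizer_iff]
    intro x hx
    exact (mem_centralizer_iff.1 (h1 hx) t ht).symm
  intro x hx y hy
  exact mem_centralizer_iff.1 (h2 hy) x hx

theorem center_perm3 (σ : Equiv.Perm (Fin 3)) (h : ∀ τ : Equiv.Perm (Fin 3), σ * τ = τ * σ) : σ = 1 := by
  revert σ
  decide

theorem prod_S3 (hV : ∀ v : V, v * v = 1) {H F : Subgroup (MulAut V)} (c : OddF H F) (D : Set (MulAut V))
    (hD : ∀ t ∈ D, t ∈ H ∧ ∃ z, Tv t z) (hconj : ∀ f ∈ F, ∀ t ∈ D, f * t * f⁻¹ ∈ D) (hne : D.Nonempty) :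
    ∃ n : ℕ, 1 ≤ n ∧ Nonempty (closure D ≃* (Fin n → Equiv.Perm (Fin 3))) := by
  classical
  let S : Set (Subgroup (MulAut V)) := {L | ∃ t ∈ D, L = closure (orb F t)}
  let L : S → Subgroup (MulAut V) := fun i => i.1
  have : Finite S := Set.toFinite S
  let inst := Fintype.ofFinite S
  have hcomm : Pairwise fun i j : S => ∀ x y : MulAut V, x ∈ L i → y ∈ L j → Commute x y := by
    rintro ⟨_, t, ht, rfl⟩ ⟨_, r, hr, rfl⟩ hij x y hx hy
    obtain ⟨htH, z, htT⟩ := hD t ht
    refine comm_closure ?_ x hx y hy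
    intro s hs r' hr'
    obtain ⟨yy, T⟩ := exists_trip hV c htH htT
    have hr'2 : r' ∈ H ∧ ∃ z, Tv r' z := by
      obtain ⟨f, hf, rfl⟩ := hr'
      exact hD _ (hconj f hf r hr)
    obtain ⟨hr'H, w, hr'T⟩ := hr'2
    rcases block hV c T htH hr'H hr'T with h | h
    · exfalso
      apply hij
      apply Subtype.ext
      change closure (orb F t) = closure (orb F r)
      rw [← orb_eq h, orb_eq hr']
    · exact (h s hs).symm
  have hiso : ∀ i : S, Nonempty (L i ≃* Equiv.Perm (Fin 3)) := by
    rintro ⟨_, t, ht, rfl⟩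
    obtain ⟨htH, z, htT⟩ := hD t ht
    exact closure_orb hV c htH htT
  have hind : iSupIndep L := by
    intro i
    rw [disjoint_iff_inf_le]
    rintro x ⟨hx1, hx2⟩
    have h1 : (⨆ j ≠ i, L j) ≤ centralizer (L i : Set (MulAut V)) := by
      refine iSup₂_le fun j hj x hx => ?_
      rw [mem_centralizer_iff]
      intro y hy
      exact hcomm hj.symm y x hy hx
    have h2 := h1 hx2
    obtain ⟨e⟩ := hiso i
    have h3 : e ⟨x, hx1⟩ = 1 := by
      apply center_perm3
      intro τ
      obtain ⟨y, rfl⟩ := e.surjective τ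
      rw [← map_mul, ← map_mul]
      congr 1
      exact Subtype.ext (mem_centralizer_iff.1 h2 y y.2).symm
    have h4 : (⟨x, hx1⟩ : L i) = 1 := by rw [← e.map_eq_one_iff]; exact h3
    rw [mem_bot]
    exact congrArg Subtype.val h4
  have hsup : ⨆ i, L i = closure D := by
    apply le_antisymm
    · apply iSup_le
      rintro ⟨_, t, ht, rfl⟩
      change closure (orb F t) ≤ closure D
      apply Subgroup.closure_mono
      rintro _ ⟨f, hf, rfl⟩
      exact hconj f hf t ht
    · rw [closure_le]
      intro t ht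
      have h1 : closure (orb F t) ≤ ⨆ i, L i := le_iSup L ⟨_, t, ht, rfl⟩
      exact h1 (subset_closure (orb_self F t))
  let φ := Subgroup.noncommPiCoprod (H := L) hcomm
  have hφ : Function.Injective φ := Subgroup.injective_noncommPiCoprod_of_iSupIndep hind
  have hφr : φ.range = closure D := by
    rw [← hsup]
    exact Subgroup.noncommPiCoprod_range
  let e1 : (∀ i, L i) ≃* φ.range := MonoidHom.ofInjective hφ
  let e2 : φ.range ≃* closure D := MulEquiv.subgroupCongr hφr
  let e3 : (∀ i, L i) ≃* (S → Equiv.Perm (Fin 3)) := MulEquiv.piCongrRight fun i => (hiso i).some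
  let e4 : (S → Equiv.Perm (Fin 3)) ≃* (Fin (Fintype.card S) → Equiv.Perm (Fin 3)) :=
    { (Equiv.arrowCongr (Fintype.equivFin S) (Equiv.refl _)) with
      map_mul' := fun a b => rfl }
  refine ⟨Fintype.card S, ?_, ⟨e2.symm.trans (e1.symm.trans (e3.trans e4))⟩⟩
  obtain ⟨t, ht⟩ := hne
  exact Fintype.card_pos_iff.2 ⟨⟨_, t, ht, rfl⟩⟩

end Cfsg.Agent.H65.FoF
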