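import Cfsg.Agent.H65.FoF5
import Cfsg.Agent.H34.ClassTwo
import Cfsg.Agent.H47.JA
import Cfsg.Agent.Transfer.Fusion

set_option autoImplicit false
set_option linter.unusedSectionVars false
set_option linter.unusedSimpArgs false
set_option linter.unusedVariables false

/-!
Failure of factorization in solvable groups of characteristic two.
-/

namespace Cfsg.Agent.H65.FoF

open Subgroup Cfsg
open H34 (fixedBy mem_fixedBy fixedBy_anti)
open H47 (IsMA JJ)

universe u

variable {X : Type u} [Group X] [Finite X]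

/-- Frattini factorization -/
theorem frattini_JJ (T : Sylow 2 X) (K : Subgroup X) [K.Normal] (hJK : JJ (T : Subgroup X) ≤ K) :
    K ⊔ normalizer (JJ (T : Subgroup X) : Set X) = ⊤ := by
  have : Fact (Nat.Prime 2) := ⟨Nat.prime_two⟩
  have hF := Sylow.normalizer_sup_eq_top (Transfer.sylowInf T K)
  rw [Transfer.sylowInf_coe, Subgroup.subgroupOf_map_subtype] at hF
  have h1 := H47.normalizer_le_normalizer_JJ ((T : Subgroup X) ⊓ K)
  rw [H47.JJ_eq_of_le inf_le_left (le_inf (H47.JJ_le _) hJK)] at h1
  rw [eq_top_iff, ← hF]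
  exact sup_le (h1.trans le_sup_right) le_sup_left

/-- an element of odd order centralising the elements of square one of a normal abelian 2-group
centralises it -/
theorem coprime_omega {V : Subgroup X} (hV : ∀ a ∈ V, ∀ b ∈ V, a * b = b * a) (hVn : V.Normal)
    {x : X} (hx : Odd (orderOf x)) (hW : ∀ w ∈ V, w * w = 1 → x * w = w * x) :
    ∀ (n : ℕ), ∀ v ∈ V, v ^ 2 ^ n = 1 → x * v = v * x := by
  intro n
  induction n with
  | zero =>
    intro v _ h
    rw [pow_zero, pow_one] at h
    rw [h, mul_one, one_mul]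
  | succ n ih =>
    intro v hv h
    have h1 : x * (v * v) = (v * v) * x := by
      apply ih _ (mul_mem hv hv)
      rw [← sq, ← pow_mul, ← pow_succ']
      exact h
    have hxv : x * v * x⁻¹ ∈ V := hVn.conj_mem v hv x
    have hw : x * v * x⁻¹ * v⁻¹ ∈ V := mul_mem hxv (inv_mem hv)
    have c1 : Commute (x * v * x⁻¹) v⁻¹ := hV _ hxv _ (inv_mem hv)
    have hw2 : (x * v * x⁻¹ * v⁻¹) * (x * v * x⁻¹ * v⁻¹) = 1 := by
      rw [← sq, c1.mul_pow, sq, sq]
      have e : x * v * x⁻¹ * (x * v * x⁻¹) = x * (v * v) * x⁻¹ := by group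
      rw [e, h1, mul_inv_cancel_right, ← mul_inv_rev, mul_inv_cancel]
    have h2 := H34.eq_one_aux x v (x * v * x⁻¹ * v⁻¹) hx (by group) (hW _ hw hw2) ⟨1, by
      rw [pow_one, sq]; exact hw2⟩
    exact mul_inv_eq_iff_eq_mul.1 (mul_inv_eq_one.1 h2)

theorem card_comm_sup {B W : Subgroup X} (h : B ≤ normalizer (W : Set X)) :
    Nat.card (B ⊔ W : Subgroup X) * Nat.card (W ⊓ B : Subgroup X) = Nat.card B * Nat.card W := by
  have h1 := Cop.relIndex_sup_eq h
  have h2 := H62.card_mul_relIndex' (le_sup_right : W ≤ B ⊔ W)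
  have h3 := H62.card_mul_relIndex' (inf_le_right : W ⊓ B ≤ B)
  rw [Subgroup.inf_relIndex_right] at h3
  rw [← h2, ← h3, h1]
  ring

/-- the offender inequality -/
theorem off_of_MA {T A W : Subgroup X} (hA : IsMA T A) (hWT : W ≤ T) (hW : ∀ a ∈ W, ∀ b ∈ W, a * b = b * a)
    {B : Subgroup X} (hBA : B ≤ A) :
    Nat.card B * Nat.card (W ⊓ centralizer (B : Set X) : Subgroup X) ≤
      Nat.card A * Nat.card (W ⊓ centralizer (A : Set X) : Subgroup X) := by
  set WB := W ⊓ centralizer (B : Set X) with hWB
  have hcomm : ∀ a ∈ A, ∀ b ∈ A, a * b = b * a := fun a ha b hb =>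
    mem_centralizer_iff.1 (hA.2.1 hb) a ha
  have hBW : ∀ b ∈ B, ∀ w ∈ WB, b * w = w * b := fun b hb w hw => mem_centralizer_iff.1 hw.2 b hb
  have hn : B ≤ normalizer (WB : Set X) := by
    intro b hb
    rw [mem_normalizer_iff]
    intro y
    constructor
    · intro hy
      rw [hBW b hb y hy, mul_inv_cancel_right]; exact hy
    · intro hy
      have h2 : y = b⁻¹ * (b * y * b⁻¹) * b := by group
      have h3 : b⁻¹ * (b * y * b⁻¹) = (b * y * b⁻¹) * b⁻¹ := hBW _ (inv_mem hb) _ hy
      rw [h2, h3, inv_mul_cancel_right]; exact hy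
  have h1 := card_comm_sup hn
  have h2 : (B ⊔ WB : Subgroup X) ≤ centralizer ((B ⊔ WB : Subgroup X) : Set X) := by
    have e1 : (B ⊔ WB : Subgroup X) ≤ centralizer (B : Set X) := by
      refine sup_le ?_ inf_le_right
      intro b hb
      rw [mem_centralizer_iff]
      intro a ha
      exact hcomm a (hBA ha) b (hBA hb)
    have e2 : (B ⊔ WB : Subgroup X) ≤ centralizer (WB : Set X) := by
      refine sup_le ?_ ?_
      · rw [le_centralizer_iff]; exact inf_le_right
      · intro b hb
        rw [mem_centralizer_iff]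
        intro a ha
        exact hW a ha.1 b hb.1
    rw [le_centralizer_iff]
    refine sup_le ?_ ?_
    · rw [le_centralizer_iff]; exact e1
    · rw [le_centralizer_iff]; exact e2
  have h3 := hA.2.2 _ (sup_le (hBA.trans hA.1) (inf_le_left.trans hWT)) h2
  have h4 : Nat.card (WB ⊓ B : Subgroup X) ≤ Nat.card (W ⊓ centralizer (A : Set X) : Subgroup X) := by
    apply Subgroup.card_le_of_le
    rintro x ⟨hx1, hx2⟩
    refine ⟨hx1.1, ?_⟩
    change x ∈ centralizer (A : Set X)
    rw [mem_centralizer_iff]
    intro a ha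
    exact hcomm a ha x (hBA hx2)
  rw [← h1]
  exact Nat.mul_le_mul h3 h4

theorem main [Group.IsSolvable X] (hF : fittingSubgroup X = pCore 2 X) (T : Sylow 2 X) :
    ((centralizer (((T : Subgroup X) ⊓ centralizer ((T : Subgroup X) : Set X) : Subgroup X) : Set X)).normalCore
        ⊔ normalClosure (JJ (T : Subgroup X) : Set X)
        ⊔ normalizer (JJ (T : Subgroup X) : Set X) = ⊤) ∧
    (normalClosure (JJ (T : Subgroup X) : Set X)
        ≤ (centralizer (((T : Subgroup X) ⊓ centralizer ((T : Subgroup X) : Set X) : Subgroup X) : Set X)).normalCore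
      ∨ ∃ n : ℕ, 1 ≤ n ∧
        Nonempty (↥(normalClosure (JJ (T : Subgroup X) : Set X)) ⧸
            ((centralizer (((T : Subgroup X) ⊓ centralizer ((T : Subgroup X) : Set X) : Subgroup X) : Set X)).normalCore).subgroupOf
              (normalClosure (JJ (T : Subgroup X) : Set X))
          ≃* (Fin n → Equiv.Perm (Fin 3)))) := by
  have : Fact (Nat.Prime 2) := ⟨Nat.prime_two⟩
  set Z : Subgroup X := (T : Subgroup X) ⊓ centralizer ((T : Subgroup X) : Set X) with hZ
  set C := (centralizer (Z : Set X)).normalCore with hC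
  set Y := normalClosure (JJ (T : Subgroup X) : Set X) with hY
  have hYn : Y.Normal := normalClosure_normal
  have hCn : C.Normal := inferInstance
  have hJY : JJ (T : Subgroup X) ≤ Y := subset_normalClosure
  refine ⟨frattini_JJ T (C ⊔ Y) (hJY.trans le_sup_right), ?_⟩
  -- the normal closure of the centre
  set V := normalClosure (Z : Set X) with hVdef
  have hVn : V.Normal := normalClosure_normal
  have hZV : Z ≤ V := subset_normalClosure
  have hCV : C = centralizer (V : Set X) := by
    apply le_antisymm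
    · rw [le_centralizer_iff]
      apply normalClosure_le_normal
      intro z hz
      rw [SetLike.mem_coe, mem_centralizer_iff]
      intro c hc
      have := (Subgroup.normalCore_le _) hc
      exact (mem_centralizer_iff.1 this z hz).symm
    · rw [hC, Subgroup.normal_le_normalCore]
      exact centralizer_le hZV
  set Q := pCore 2 X with hQ
  have hCQ : centralizer (Q : Set X) ≤ Q := by
    have := Solv.centralizer_fitting_le (G := X)
    rwa [hF] at this
  have hQT : Q ≤ (T : Subgroup X) := Solv.pCore_le_sylow T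
  have hVQ : V ≤ Q ⊓ centralizer (Q : Set X) := by
    apply normalClosure_le_normal
    intro z hz
    have h1 : z ∈ centralizer (Q : Set X) := centralizer_le hQT hz.2
    exact ⟨hCQ h1, h1⟩
  have hVc : ∀ a ∈ V, ∀ b ∈ V, a * b = b * a := fun a ha b hb =>
    mem_centralizer_iff.1 (hVQ hb).2 a (hVQ ha).1
  have hVT : V ≤ (T : Subgroup X) := fun v hv => hQT (hVQ hv).1
  set W := H34.omegaSq V hVc with hW
  have hWn : W.Normal := H34.omegaSq_normal hVc
  have hWV : W ≤ V := fun w hw => hw.1
  have hWc : ∀ a ∈ W, ∀ b ∈ W, a * b = b * a := fun a ha b hb => hVc a (hWV ha) b (hWV hb)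
  -- reducedness
  have hred0 := H34.reduced_of_normalClosure T Z V rfl inf_le_right
  have hVp : ∀ v ∈ V, ∃ n : ℕ, v ^ 2 ^ n = 1 := by
    intro v hv
    obtain ⟨n, hn⟩ := T.isPGroup' ⟨v, hVT hv⟩
    exact ⟨n, congrArg Subtype.val hn⟩
  let inst : CommGroup W :=
    { (inferInstance : Group W) with mul_comm := fun a b => Subtype.ext (hWc a a.2 b b.2) }
  have hW2 : ∀ v : W, v * v = 1 := fun v => Subtype.ext v.2.2
  let ρ : X →* MulAut W := MulAut.conjNormal
  have hρ : ∀ (x : X) (w : W), ((ρ x w : W) : X) = x * w * x⁻¹ := fun x w => MulAut.conjNormal_apply x w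
  have hρ1 : ∀ x : X, ρ x = 1 ↔ ∀ w ∈ W, x * w = w * x := by
    intro x
    constructor
    · intro h w hw
      have h1 : ((ρ x ⟨w, hw⟩ : W) : X) = w := by rw [h]; rfl
      rw [hρ] at h1
      exact mul_inv_eq_iff_eq_mul.1 h1
    · intro h
      ext v
      rw [hρ]
      change x * (v : X) * x⁻¹ = v
      rw [h v v.2, mul_inv_cancel_right]
  have hkey : ∀ N : Subgroup X, N.Normal → (∀ n ∈ N, ∃ k : ℕ, ρ (n ^ 2 ^ k) = 1) → N ≤ C := by
    intro N hN hN2
    let σ : X →* MulAut V := MulAut.conjNormal
    have hσ : ∀ (x : X) (w : V), ((σ x w : V) : X) = x * w * x⁻¹ := fun x w => MulAut.conjNormal_apply x w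
    have h1 : IsPGroup 2 (N.map σ.rangeRestrict) := by
      rintro ⟨_, n, hn, rfl⟩
      obtain ⟨k, hk⟩ := hN2 n hn
      rw [hρ1] at hk
      set m := n ^ 2 ^ k with hm
      obtain ⟨i, j, hj, hij⟩ := Nat.exists_eq_two_pow_mul_odd (orderOf_pos m).ne'
      have hodd : Odd (orderOf (m ^ 2 ^ i)) := by
        rw [orderOf_pow, hij, Nat.gcd_eq_right (dvd_mul_right _ _), Nat.mul_div_cancel_left _ (by positivity)]
        exact hj
      have h2 : ∀ w ∈ V, w * w = 1 → (m ^ 2 ^ i) * w = w * (m ^ 2 ^ i) := by
        intro w hw hw2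
        have c1 : Commute m w := hk w ⟨hw, hw2⟩
        exact c1.pow_left _
      refine ⟨k + i, ?_⟩
      apply Subtype.ext
      apply Subtype.ext
      change (σ n) ^ 2 ^ (k + i) = 1
      rw [← map_pow, pow_add, pow_mul, ← hm]
      ext v
      rw [hσ]
      change (m ^ 2 ^ i) * (v : X) * (m ^ 2 ^ i)⁻¹ = v
      obtain ⟨l, hl⟩ := hVp v v.2
      rw [coprime_omega hVc hVn hodd h2 l v v.2 hl, mul_inv_cancel_right]
    have h2 : N.map σ.rangeRestrict ≤ pCore 2 σ.range :=
      Solv.le_pCore (hN.map _ σ.rangeRestrict_surjective) h1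
    have h3 : pCore 2 σ.range = ⊥ := hred0
    rw [h3, le_bot_iff] at h2
    intro n hn
    rw [hCV, mem_centralizer_iff]
    intro v hv
    have h4 : σ.rangeRestrict n ∈ N.map σ.rangeRestrict := ⟨n, hn, rfl⟩
    rw [h2, mem_bot] at h4
    have h5 : σ n = 1 := congrArg Subtype.val h4
    have h6 : ((σ n ⟨v, hv⟩ : V) : X) = v := by rw [h5]; rfl
    rw [hσ] at h6
    exact (mul_inv_eq_iff_eq_mul.1 h6).symm
  have hker : ρ.ker = C := by
    apply le_antisymm
    · exact hkey _ inferInstance fun n hn => ⟨0, by rw [pow_zero, pow_one]; exact hn⟩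
    · intro c hc
      rw [MonoidHom.mem_ker, hρ1]
      intro w hw
      rw [hCV] at hc
      exact (mem_centralizer_iff.1 hc w (hWV hw)).symm
  have hred : pCore 2 ρ.range = ⊥ := by
    have h1 : (pCore 2 ρ.range).comap ρ.rangeRestrict ≤ C := by
      apply hkey _ inferInstance
      intro n hn
      obtain ⟨k, hk⟩ := Solv.pCore_isPGroup (G := ρ.range) 2 ⟨ρ.rangeRestrict n, hn⟩
      refine ⟨k, ?_⟩
      rw [map_pow]
      exact congrArg (fun x : pCore 2 ρ.range => ((x : ρ.range) : MulAut W)) hk
    rw [← hker] at h1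
    rw [eq_bot_iff]
    intro p hp
    obtain ⟨x, rfl⟩ := ρ.rangeRestrict_surjective p
    have h2 : ρ x = 1 := h1 hp
    exact Subtype.ext h2
  have hsolH : Group.IsSolvable ρ.range := Group.isSolvable_of_surjective ρ.rangeRestrict_surjective
  have c := oddF_fitting ρ.range hred
  set F := (fittingSubgroup ρ.range).map ρ.range.subtype with hFdef
  -- transvections in the image of Y
  let D : Set (MulAut W) := {t | t ∈ Y.map ρ ∧ ∃ z, Tv t z}
  have hDconj : ∀ x : X, ∀ t ∈ D, ρ x * t * (ρ x)⁻¹ ∈ D := by
    rintro x _ ⟨⟨y, hy, rfl⟩, z, hz⟩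
    refine ⟨⟨x * y * x⁻¹, hYn.conj_mem y hy x, by rw [map_mul, map_mul, map_inv]⟩, ρ x z, hz.conj _⟩
  have hYD : Y.map ρ = closure D := by
    apply le_antisymm
    · rw [map_le_iff_le_comap]
      have hn : ((closure D).comap ρ).Normal := by
        constructor
        intro n hn g
        rw [mem_comap] at hn ⊢
        rw [map_mul, map_mul, map_inv]
        have h1 : (closure D).map (MulAut.conj (ρ g)).toMonoidHom ≤ closure D := by
          rw [MonoidHom.map_closure, closure_le]
          rintro _ ⟨t, ht, rfl⟩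
          exact subset_closure (hDconj g t ht)
        exact h1 ⟨_, hn, rfl⟩
      apply normalClosure_le_normal
      intro j hj
      have hJ : JJ (T : Subgroup X) ≤ (closure D).comap ρ := by
        rw [H47.JJ_le_iff]
        intro A hA
        rw [← map_le_iff_le_comap]
        have hAY : A ≤ Y := hA.le_JJ.trans hJY
        have hAc : ∀ a ∈ A, ∀ b ∈ A, a * b = b * a := fun a ha b hb =>
          mem_centralizer_iff.1 (hA.2.1 hb) a ha
        have hfixc : ∀ B : Subgroup X, Nat.card (fixedBy (B.map ρ)) =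
            Nat.card (W ⊓ centralizer (B : Set X) : Subgroup X) := by
          intro B
          have h1 : (fixedBy (B.map ρ)).map W.subtype = W ⊓ centralizer (B : Set X) := by
            ext x
            constructor
            · rintro ⟨v, hv, rfl⟩
              refine Subgroup.mem_inf.mpr ⟨v.2, ?_⟩
              rw [Subgroup.mem_centralizer_iff]
              intro a ha
              have h2 := congrArg Subtype.val (hv (ρ a) ⟨a, ha, rfl⟩)
              rw [hρ] at h2
              exact mul_inv_eq_iff_eq_mul.mp h2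
            · intro hvx
              obtain ⟨hv, hx⟩ := Subgroup.mem_inf.mp hvx
              refine ⟨⟨x, hv⟩, ?_, rfl⟩
              rintro _ ⟨a, ha, rfl⟩
              apply Subtype.ext
              rw [hρ]
              rw [Subgroup.mem_centralizer_iff] at hx
              show a * x * a⁻¹ = x
              rw [hx a ha, mul_inv_cancel_right]
          rw [← h1, Subgroup.card_map_of_injective W.subtype_injective]
        have hcardB : ∀ B : Subgroup X, Nat.card (B.map ρ) * Nat.card (ρ.ker ⊓ B : Subgroup X) =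
            Nat.card B := by
          intro B
          have h1 := Subgroup.relIndex_ker (K := B) ρ
          have h2 := H62.card_mul_relIndex' (inf_le_right : ρ.ker ⊓ B ≤ B)
          rw [Subgroup.inf_relIndex_right, h1, mul_comm] at h2
          exact h2
        have hoff : ∀ B ≤ A.map ρ, Nat.card B * Nat.card (fixedBy B) ≤
            Nat.card (A.map ρ) * Nat.card (fixedBy (A.map ρ)) := by
          intro B' hB'
          let B := A ⊓ B'.comap ρ
          have hBmap : B.map ρ = B' := by
            apply le_antisymm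
            · rintro _ ⟨b, hb, rfl⟩; exact hb.2
            · intro b hb
              obtain ⟨a, ha, rfl⟩ := hB' hb
              exact ⟨a, ⟨ha, hb⟩, rfl⟩
          have h1 := off_of_MA hA (hWV.trans hVT) hWc (inf_le_left : B ≤ A)
          have h2 : (ρ.ker ⊓ B : Subgroup X) = ρ.ker ⊓ A := by
            ext x
            constructor
            · rintro ⟨h3, h4⟩; exact ⟨h3, h4.1⟩
            · rintro ⟨h3, h4⟩
              refine ⟨h3, h4, ?_⟩
              change ρ x ∈ B'
              have h5 : ρ x = 1 := h3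
              rw [h5]; exact one_mem _
          have h3 := hcardB B
          have h4 := hcardB A
          rw [h2, hBmap] at h3
          rw [← h3, ← h4, ← hfixc, ← hfixc, hBmap] at h1
          have hpos : 0 < Nat.card (ρ.ker ⊓ A : Subgroup X) := Nat.card_pos
          apply Nat.le_of_mul_le_mul_right _ hpos
          calc _ = Nat.card B' * Nat.card (ρ.ker ⊓ A : Subgroup X) * Nat.card (fixedBy B') := by ring
            _ ≤ _ := h1
            _ = _ := by ring
        have hgen := off_gen hW2 c (A := A.map ρ) (map_le_range ρ A)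
          ((T.isPGroup'.to_le hA.1).map ρ) (by
            rintro _ ⟨a, ha, rfl⟩ _ ⟨b, hb, rfl⟩
            rw [← map_mul, hAc a ha b hb, map_mul]) hoff
        refine hgen.trans (Subgroup.closure_mono ?_)
        rintro t ⟨ht, ht'⟩
        exact ⟨map_mono hAY ht, ht'⟩
      exact hJ hj
    · rw [closure_le]
      intro t ht
      exact ht.1
  rcases Set.eq_empty_or_nonempty D with hD | hD
  · left
    change Y ≤ C
    rw [← hker]
    rw [hD, Subgroup.closure_empty, Subgroup.map_eq_bot_iff] at hYD
    exact hYD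
  · right
    obtain ⟨n, hn, ⟨e⟩⟩ := prod_S3 hW2 c D (fun t ht => ⟨map_le_range ρ Y ht.1, ht.2⟩) (by
      intro f hf t ht
      obtain ⟨x, hx⟩ := c.le hf
      rw [← hx]
      exact hDconj x t ht) hD
    refine ⟨n, hn, ⟨?_⟩⟩
    let ψ : Y →* MulAut W := ρ.comp Y.subtype
    have h1 : ψ.ker = C.subgroupOf Y := by
      ext y
      rw [MonoidHom.mem_ker, mem_subgroupOf, ← hker]
      rfl
    have h2 : ψ.range = closure D := by
      rw [← hYD, MonoidHom.range_comp, range_subtype]
    have hn1 : (C.subgroupOf Y).Normal := inferInstance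
    exact (QuotientGroup.quotientMulEquivOfEq h1.symm).trans
      ((QuotientGroup.quotientKerEquivRange ψ).trans ((MulEquiv.subgroupCongr h2).trans e))

end Cfsg.Agent.H65.FoF
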